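import Cfsg.Agent.H19.BD4

/-! Labels of the positive vertices of a Brauer tree (Sylow subgroup of prime order), via
bi-invariant functions over a complete unramified valuation ring. -/

set_option autoImplicit false

namespace Cfsg.Agent.H4BT

open Module Cfsg.Agent.H19 Finset

variable {p : ℕ} {R : Type*} [CommRing R] [IsDomain R] [IsPrincipalIdealRing R]

theorem exists_gamma {A : Type*} [Ring A] [Algebra R A] [Module.Free R A] [Module.Finite R A]
    (hR : Good p R) {U y : A} {n : R} (hn : n ≠ 0) (hU : ∀ a, U * a = a * U)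
    (hUU : U * U = n • U) (hy : y ^ p = 1) {s : ℕ} (hs : 0 < s)
    (h : LinearMap.trace R A (LinearMap.mulLeft R (U * ∑ i ∈ range p, y ^ i)) =
      LinearMap.trace R A (LinearMap.mulLeft R U) + n * s) :
    ∃ γ : A →ₗ[R] R, (∀ z, γ (y * z) = γ z) ∧ (∀ z, γ (z * y) = γ z) ∧
      (∀ z, γ (U * z) = n * γ z) ∧ IsUnit (γ 1) := by
  haveI := hR.charZero
  set T := ∑ i ∈ range p, y ^ i with hT
  have hTy : T * y = T := by
    have := geom_sum_mul y p
    rw [hy, sub_self, mul_sub, mul_one, sub_eq_zero] at this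
    exact this
  have hyT : y * T = T := by
    have := mul_geom_sum y p
    rw [hy, sub_self, sub_mul, one_mul, sub_eq_zero] at this
    exact this
  have hfix : ∀ v : A, y * v = v → T * v = (p : R) • v := fun v hv => by
    have : ∀ i : ℕ, y ^ i * v = v := fun i => by
      induction i with
      | zero => simp
      | succ i ih => rw [pow_succ, mul_assoc, hv, ih]
    rw [hT, sum_mul, sum_congr rfl fun i _ => this i, sum_const, card_range, Nat.cast_smul_eq_nsmul]
  let Tm : A →ₗ[R] A := (LinearMap.mulLeft R (U * T)).comp (LinearMap.mulRight R T)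
  have hTm : ∀ z, Tm z = U * T * (z * T) := fun z => rfl
  by_cases hz : ∀ z, Tm 1 ≠ (p : R) • Tm z
  · obtain ⟨γ, h0, h1⟩ := hR.exists_functional Tm 1 hz
    refine ⟨γ, fun z => ?_, fun z => ?_, fun z => ?_, h1⟩
    · rw [← sub_eq_zero, ← map_sub]
      refine h0 _ ?_
      rw [map_sub, hTm, hTm, mul_assoc y, ← mul_assoc (U * T), mul_assoc U, hTy, sub_self]
    · rw [← sub_eq_zero, ← map_sub]
      refine h0 _ ?_
      rw [map_sub, hTm, hTm, mul_assoc z, hyT, sub_self]
    · rw [← sub_eq_zero, ← smul_eq_mul n, ← map_smul, ← map_sub]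
      refine h0 _ ?_
      rw [map_sub, map_smul, hTm, hTm, mul_assoc U z, ← mul_assoc (U * T), mul_assoc U T U, ← hU T,
        ← mul_assoc U U, hUU, smul_mul_assoc, smul_mul_assoc, sub_self]
  exfalso
  push Not at hz
  obtain ⟨z, hz⟩ := hz
  have hz' : U * T = U * T * (z * T) := by
    apply hR.smul_inj
    rw [← hTm, ← hz, hTm, one_mul, mul_assoc, hfix T hyT, mul_smul_comm]
  let X := LinearMap.range (LinearMap.mulLeft R U)
  have hX : ∀ a, ∀ v ∈ X, LinearMap.mulLeft R a v ∈ X := by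
    rintro a _ ⟨w, rfl⟩
    exact ⟨a * w, by simp only [LinearMap.mulLeft_apply]; rw [← mul_assoc, hU, mul_assoc]⟩
  let ρ : A → Module.End R X := fun a => (LinearMap.mulLeft R a).restrict (hX a)
  have hρ : ∀ a (v : X), ((ρ a v : X) : A) = a * v := fun a v => rfl
  have hUv : ∀ v : X, U * (v : A) = n • (v : A) := by
    rintro ⟨_, w, rfl⟩
    simp only [LinearMap.mulLeft_apply]
    rw [← mul_assoc, hUU, smul_mul_assoc]
  have hpow : ∀ (i : ℕ) (v : X), (((ρ y ^ i) v : X) : A) = y ^ i * v := fun i => by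
    induction i with
    | zero => simp
    | succ i ih => intro v; rw [pow_succ', Module.End.mul_apply, hρ, ih, pow_succ', mul_assoc]
  have hY : ρ y ^ p = 1 := by
    ext v; rw [hpow, hy, one_mul]; rfl
  have hN : nrmOp p (ρ y) = ρ T := by
    ext v
    rw [hρ, nrmOp, LinearMap.sum_apply, Submodule.coe_sum, sum_congr rfl fun i _ => hpow i v, hT,
      sum_mul]
  have htr : ∀ a, LinearMap.trace R A (LinearMap.mulLeft R (U * a)) =
      n * LinearMap.trace R X (ρ a) := fun a => by
    let φ : A →ₗ[R] X := (LinearMap.mulLeft R (U * a)).codRestrict X fun v => ⟨a * v, by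
      simp [mul_assoc]⟩
    have e1 : LinearMap.mulLeft R (U * a) = X.subtype ∘ₗ φ := by ext v; rfl
    have e2 : φ ∘ₗ X.subtype = n • ρ a := by
      ext v
      show U * a * (v : A) = n • (a * (v : A))
      rw [hU a, mul_assoc, hUv, mul_smul_comm]
    rw [e1, LinearMap.trace_comp_comm', e2, map_smul, smul_eq_mul]
  have hle : LinearMap.ker (ρ y - 1) ≤ LinearMap.range (nrmOp p (ρ y)) := by
    intro v hv
    have hv' : y * (v : A) = v := by
      have := congrArg Subtype.val (LinearMap.mem_ker.mp hv)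
      rw [LinearMap.sub_apply, Submodule.coe_sub, hρ, Submodule.coe_zero, sub_eq_zero] at this
      exact this
    refine ⟨ρ z v, Subtype.ext ?_⟩
    rw [hN, hρ, hρ]
    have e := congrArg (· * (v : A)) hz'
    simp only [mul_assoc] at e
    rw [hfix _ hv', mul_smul_comm, mul_smul_comm, mul_smul_comm, mul_smul_comm] at e
    have e' := hR.smul_inj e
    have e3 := hUv (ρ T (ρ z v))
    rw [hρ, hρ, ← e', hUv] at e3
    exact (smul_right_injective A hn e3).symm
  obtain ⟨c, h1, h2⟩ := hR.herbrand (ρ y) hY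
  rw [ri_of_le hle, mul_one] at h1
  rw [h1, mul_pow, ← pow_mul] at h2
  have h3 := (Nat.pow_dvd_pow_iff_le_right hR.one_lt_resq).mp (Dvd.intro _ h2)
  have h4 := hR.finrank_eq_add (ρ y) hY
  have h5 := trace_nrmOp (ρ y) hY
  have h6 : ρ 1 = 1 := by ext v; rw [hρ, one_mul]; rfl
  have h7 := htr 1
  rw [mul_one, h6, LinearMap.trace_one] at h7
  rw [htr, h7, ← hN, h5, ← mul_add] at h
  have h8 := mul_left_cancel₀ hn h
  rw [h4] at h8
  have h9 : p * finrank R (LinearMap.ker (ρ y - 1)) = finrank R (LinearMap.ker (ρ y - 1)) +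
      finrank R (LinearMap.ker (nrmOp p (ρ y))) + s := by exact_mod_cast h8
  obtain ⟨k, rfl⟩ : ∃ k, p = k + 1 := ⟨p - 1, (Nat.succ_pred_eq_of_pos hR.prime.pos).symm⟩
  rw [Nat.add_sub_cancel] at h3
  nlinarith

variable {G : Type*} [Group G] [Fintype G]

/-- `f` is bi-invariant under `x`, lies in the ideal cut out by `u`, and has unit value at `1` -/
structure Lab (x : G) (u f : G → R) : Prop where
  l : ∀ g, f (x * g) = f g
  r : ∀ g, f (g * x) = f g
  c : ∀ g, ∑ t, u t * f (t * g) = Fintype.card G * f g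
  one : IsUnit (f 1)

theorem exists_lab_aux {A : Type*} [Ring A] [Algebra R A] (o : G →* A) (b : Basis G R A)
    (hb : ∀ g, b g = o g) (hR : Good p R) {x : G} (hx : x ^ p = 1) {u : G → R}
    (hc : ∀ a b, u (a * b) = u (b * a))
    (hu : ∀ g, ∑ t, u t * u (t⁻¹ * g) = Fintype.card G * u g) {s : ℕ} (hs : 0 < s)
    (h : ∑ k ∈ range p, u (x ^ k)⁻¹ = u 1 + s) : ∃ f, Lab x u f := by
  classical
  haveI := hR.charZero
  haveI : Module.Free R A := Module.Free.of_basis b
  haveI : Module.Finite R A := Module.Finite.of_basis b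
  let U : A := ∑ t, u t • o t
  have hn : (Fintype.card G : R) ≠ 0 := Nat.cast_ne_zero.mpr Fintype.card_ne_zero
  have hUo : ∀ g, U * o g = o g * U := fun g => by
    simp only [U, sum_mul, mul_sum, smul_mul_assoc, mul_smul_comm, ← map_mul]
    rw [← Equiv.sum_comp (MulAut.conj g).toEquiv]
    refine sum_congr rfl fun t _ => ?_
    simp only [MulEquiv.toEquiv_eq_coe, EquivLike.coe_coe, MulAut.conj_apply]
    rw [hc (g * t), ← mul_assoc, inv_mul_cancel, one_mul, inv_mul_cancel_right]
  have hU : ∀ a : A, U * a = a * U := fun a => by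
    rw [← b.sum_repr a, mul_sum, sum_mul]
    exact sum_congr rfl fun g _ => by rw [mul_smul_comm, smul_mul_assoc, hb, hUo]
  have hUU : U * U = (Fintype.card G : R) • U := by
    simp only [U, sum_mul, mul_sum, smul_mul_assoc, mul_smul_comm, ← map_mul, smul_sum, smul_smul]
    simp only [← hu, sum_smul]
    rw [sum_comm, sum_comm (f := fun g t => (u t * u (t⁻¹ * g)) • o g)]
    refine sum_congr rfl fun t _ => ?_
    rw [← Equiv.sum_comp (Equiv.mulLeft t) (fun g => (u t * u (t⁻¹ * g)) • o g)]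
    refine sum_congr rfl fun g _ => ?_
    simp [mul_comm]
  have htr : ∀ g, LinearMap.trace R A (LinearMap.mulLeft R (U * o g)) =
      Fintype.card G * u g⁻¹ := fun g => by
    rw [LinearMap.trace_eq_matrix_trace R b, Matrix.trace, ← card_univ, ← nsmul_eq_mul, ← sum_const]
    refine sum_congr rfl fun a _ => ?_
    rw [Matrix.diag_apply, LinearMap.toMatrix_apply, LinearMap.mulLeft_apply]
    rw [hb, mul_assoc, ← map_mul]
    simp only [U, sum_mul, smul_mul_assoc, ← map_mul, map_sum, map_smul, Finsupp.coe_finset_sum,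
      Finset.sum_apply, Finsupp.smul_apply]
    rw [sum_eq_single g⁻¹]
    · rw [inv_mul_cancel_left, ← hb, b.repr_self]; simp
    · intro t _ ht
      rw [← hb, b.repr_self, Finsupp.single_eq_of_ne', smul_zero]
      intro e
      apply ht
      rw [← mul_assoc, mul_eq_right] at e
      exact eq_inv_of_mul_eq_one_left e
    · simp
  obtain ⟨γ, h1, h2, h3, h4⟩ := exists_gamma (A := A) (y := o x) hR hn hU hUU
    (by rw [← map_pow, hx, map_one]) hs (by
      have e : LinearMap.mulLeft R (U * ∑ i ∈ range p, o x ^ i) =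
          ∑ i ∈ range p, LinearMap.mulLeft R (U * o (x ^ i)) := by
        ext1 v
        simp only [LinearMap.mulLeft_apply, LinearMap.sum_apply, mul_sum, sum_mul, map_pow]
      have e1 := htr 1
      rw [map_one, mul_one, inv_one] at e1
      rw [e, map_sum, sum_congr rfl fun i _ => htr _, ← mul_sum, h, e1, mul_add])
  refine ⟨fun g => γ (o g), fun g => by rw [map_mul, h1], fun g => by rw [map_mul, h2],
    fun g => ?_, by rwa [map_one]⟩
  rw [← h3]
  simp only [U, sum_mul, smul_mul_assoc, ← map_mul, map_sum, map_smul, smul_eq_mul]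

theorem exists_lab (hR : Good p R) {x : G} (hx : x ^ p = 1) {u : G → R}
    (hc : ∀ a b, u (a * b) = u (b * a))
    (hu : ∀ g, ∑ t, u t * u (t⁻¹ * g) = Fintype.card G * u g) {s : ℕ} (hs : 0 < s)
    (h : ∑ k ∈ range p, u (x ^ k)⁻¹ = u 1 + s) : ∃ f, Lab x u f :=
  exists_lab_aux (MonoidAlgebra.of R G) (MonoidAlgebra.basis G R) (fun _ => rfl) hR hx hc hu hs h

omit [IsPrincipalIdealRing R] in
theorem pair_eq_zero [CharZero R] {u u' f f' : G → R} (hs : ∀ t, u t⁻¹ = u t)
    (h : ∀ g, ∑ t, u t * f (t * g) = Fintype.card G * f g)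
    (h' : ∀ g, ∑ t, u' t * f' (t * g) = Fintype.card G * f' g)
    (ho : ∀ g, ∑ t, u' (g * t⁻¹) * u t = 0) : ∑ g, f g * f' g = 0 := by
  have hn : (Fintype.card G : R) ≠ 0 := Nat.cast_ne_zero.mpr Fintype.card_ne_zero
  have e1 : ∀ a, ∑ t, u t * f' (t * a) = 0 := fun a => by
    apply mul_left_cancel₀ hn
    rw [mul_zero, mul_sum]
    have : ∀ t, (Fintype.card G : R) * (u t * f' (t * a)) = ∑ g, u' (g * t⁻¹) * u t * f' (g * a) :=
      fun t => by
        rw [mul_left_comm, ← h', mul_sum, ← Equiv.sum_comp (Equiv.mulRight t)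
          (fun g => u' (g * t⁻¹) * u t * f' (g * a))]
        refine sum_congr rfl fun g _ => ?_
        simp only [Equiv.coe_mulRight, mul_inv_cancel_right]
        rw [mul_assoc g]
        ring
    rw [sum_congr rfl fun t _ => this t, sum_comm]
    exact sum_eq_zero fun g _ => by rw [← sum_mul, ho, zero_mul]
  apply mul_left_cancel₀ hn
  rw [mul_zero, mul_sum]
  simp only [← mul_assoc, ← h, sum_mul]
  rw [sum_comm]
  have : ∀ t, ∑ g, u t * f (t * g) * f' g = ∑ a, f a * (u t⁻¹ * f' (t⁻¹ * a)) := fun t => by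
    rw [← Equiv.sum_comp (Equiv.mulLeft t) (fun a => f a * (u t⁻¹ * f' (t⁻¹ * a)))]
    refine sum_congr rfl fun g _ => ?_
    simp only [Equiv.coe_mulLeft, inv_mul_cancel_left, hs]
    ring
  rw [sum_congr rfl fun t _ => this t, sum_comm]
  refine sum_eq_zero fun a _ => ?_
  have e2 := Equiv.sum_comp (Equiv.inv G) (fun t => u t * f' (t * a))
  simp only [Equiv.inv_apply] at e2
  rw [← mul_sum, e2, e1, mul_zero]

omit [IsDomain R] [IsPrincipalIdealRing R] in
theorem card_dvd_sum {Q β : Type*} [Group Q] [Finite Q] [MulAction Q β] (s : Finset β)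
    (hs : ∀ (q : Q) a, a ∈ s → q • a ∈ s) (hf : ∀ a ∈ s, ∀ q : Q, q • a = a → q = 1) (F : β → R)
    (hF : ∀ (q : Q) a, F (q • a) = F a) : (Nat.card Q : R) ∣ ∑ a ∈ s, F a := by
  classical
  haveI := Fintype.ofFinite Q
  induction s using Finset.strongInduction with
  | H s ih =>
    rcases s.eq_empty_or_nonempty with rfl | ⟨b, hb⟩
    · simp
    let O : Finset β := univ.image fun q : Q => q • b
    have hO : O ⊆ s := fun a ha => by
      obtain ⟨q, -, rfl⟩ := mem_image.mp ha
      exact hs q b hb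
    rw [← sum_sdiff hO]
    refine dvd_add (ih _ (sdiff_ssubset hO ⟨b, mem_image.mpr ⟨1, mem_univ _, one_smul _ _⟩⟩)
      (fun q a ha => ?_) fun a ha => hf a (mem_sdiff.mp ha).1) ?_
    · refine mem_sdiff.mpr ⟨hs q a (mem_sdiff.mp ha).1, fun h => (mem_sdiff.mp ha).2 ?_⟩
      obtain ⟨r, -, hr⟩ := mem_image.mp h
      exact mem_image.mpr ⟨q⁻¹ * r, mem_univ _, by rw [mul_smul, hr, inv_smul_smul]⟩
    · rw [sum_image fun q _ r _ e => by
        have := hf b hb (r⁻¹ * q) (by rw [mul_smul, show q • b = r • b from e, inv_smul_smul])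
        exact (inv_mul_eq_one.mp this).symm]
      simp only [hF, sum_const, card_univ, nsmul_eq_mul, Nat.card_eq_fintype_card]
      exact dvd_mul_right _ _

omit [IsDomain R] [IsPrincipalIdealRing R] [Fintype G] in
theorem inv_zpowers [Finite G] {x : G} {F : G → R} (l : ∀ g, F (x * g) = F g) {y : G}
    (hy : y ∈ Subgroup.zpowers x) (g : G) : F (y * g) = F g := by
  obtain ⟨k, rfl⟩ := (mem_powers_iff_mem_zpowers).mpr hy
  induction k with
  | zero => simp
  | succ k ih =>
    show F (x ^ (k + 1) * g) = F g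
    rw [pow_succ', mul_assoc, l]; exact ih (Subgroup.pow_mem _ (Subgroup.mem_zpowers x) _)

omit [IsDomain R] [IsPrincipalIdealRing R] [Fintype G] in
theorem inv_zpowers' [Finite G] {x : G} {F : G → R} (r : ∀ g, F (g * x) = F g) {y : G}
    (hy : y ∈ Subgroup.zpowers x) (g : G) : F (g * y) = F g := by
  obtain ⟨k, rfl⟩ := (mem_powers_iff_mem_zpowers).mpr hy
  induction k with
  | zero => simp
  | succ k ih =>
    show F (g * x ^ (k + 1)) = F g
    rw [pow_succ, ← mul_assoc, r]; exact ih (Subgroup.pow_mem _ (Subgroup.mem_zpowers x) _)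

theorem sum_ne_zero [Fact p.Prime] (hR : Good p R) {x : G} {K : Subgroup G} (h : PO p x K)
    {F : G → R} (l : ∀ g, F (x * g) = F g) (r : ∀ g, F (g * x) = F g)
    (hN : ∀ n ∈ NN x, F n = F 1) (h1 : IsUnit (F 1)) : ∑ g, F g ≠ 0 := by
  classical
  let P := Subgroup.zpowers x
  letI : MulAction (P × P) G :=
    { smul := fun q a => q.1 * a * (q.2 : G)⁻¹
      one_smul := fun a => by show (1 : G) * a * (1 : G)⁻¹ = a; simp
      mul_smul := fun q r a => by
        show (q.1 * r.1 : G) * a * (q.2 * r.2 : G)⁻¹ = q.1 * (r.1 * a * (r.2 : G)⁻¹) * (q.2 : G)⁻¹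
        group }
  have hsm : ∀ (q : P × P) (a : G), q • a = q.1 * a * (q.2 : G)⁻¹ := fun _ _ => rfl
  have hPN : P ≤ NN x := Subgroup.le_normalizer
  have hd := card_dvd_sum (Q := P × P) (univ.filter fun a => a ∉ NN x) (fun q a ha => by
      simp only [mem_filter, mem_univ, true_and, hsm] at ha ⊢
      intro e
      rw [Subgroup.mul_mem_cancel_right _ (inv_mem (hPN q.2.2)),
        Subgroup.mul_mem_cancel_left _ (hPN q.1.2)] at e
      exact ha e)
    (fun a ha q e => by
      simp only [mem_filter, mem_univ, true_and] at ha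
      rw [hsm, mul_inv_eq_iff_eq_mul] at e
      have e1 : (q.1 : G) = 1 := by
        by_contra hne
        refine ha (h.ti a _ q.1.2 hne ?_)
        rw [mul_assoc, e, inv_mul_cancel_left]
        exact hPN q.2.2
      rw [e1, one_mul, left_eq_mul] at e
      exact Prod.ext (Subtype.ext e1) (Subtype.ext e)) F
    (fun q a => by rw [hsm, inv_zpowers' r (inv_mem q.2.2), inv_zpowers l q.1.2])
  rw [Nat.card_prod, Nat.card_zpowers, h.ord] at hd
  obtain ⟨z, hz⟩ := hd
  intro h0
  rw [← sum_filter_add_sum_filter_not univ (· ∈ NN x), hz,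
    sum_congr rfl fun n hn => hN n (mem_filter.mp hn).2, sum_const, nsmul_eq_mul,
    ← Fintype.card_subtype, ← Nat.card_eq_fintype_card, h.card_N] at h0
  push_cast at h0
  have e : (p : R) * (Nat.card K * Nat.card (EE h.ord) * F 1 + p * z) = 0 := by
    rw [← h0]; ring
  have e2 := (mul_eq_zero.mp e).resolve_left hR.ne
  have hE : ¬ p ∣ Nat.card (EE h.ord) := fun hd => by
    have := eN_mul' h.ord
    have h2 := (Nat.dvd_add_right (hd.mul_right (tN h.ord))).mp (by rw [this])
    exact hR.prime.one_lt.ne' (Nat.dvd_one.mp h2)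
  refine hR.not_dvd_of_isUnit (((hR.isUnit_natCast h.not_dvd_card).mul
    (hR.isUnit_natCast hE)).mul h1) ⟨-z, ?_⟩
  linear_combination e2

theorem Lab.proj [Fact p.Prime] (hR : Good p R) {x g : G} (hx : orderOf x = p) (hg : g ∈ NN x)
    {e : ℕ} (hge : g ^ e = 1) (he : ¬ p ∣ e) {ω : R} (hω : IsPrimitiveRoot ω e) {u f : G → R}
    (hc : ∀ a b, u (a * b) = u (b * a)) (h : Lab x u f) :
    ∃ (w : R) (f' : G → R), w ^ e = 1 ∧ Lab x u f' ∧ ∀ k : ℕ, f' (g ^ k) = w ^ k * f' 1 := by
  have he0 : 0 < e := Nat.pos_of_ne_zero (by rintro rfl; exact he (dvd_zero p))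
  let F : ℕ → G → R := fun j a => ∑ k ∈ range e, (ω ^ j) ^ k * f (g ^ k * a)
  have hsum : ∑ j ∈ range e, F j 1 = e * f 1 := by
    simp only [F]
    rw [sum_comm, sum_eq_single 0]
    · simp
    · intro k hk hk0
      rw [← sum_mul]
      have h1 : ω ^ k ≠ 1 := hω.pow_ne_one_of_pos_of_lt hk0 (mem_range.mp hk)
      have h2 := geom_sum_mul (ω ^ k) e
      rw [← pow_mul, mul_comm k e, pow_mul, hω.pow_eq_one, one_pow, sub_self] at h2
      have h3 := (mul_eq_zero.mp h2).resolve_right (sub_ne_zero.mpr h1)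
      rw [sum_congr rfl fun j _ => pow_right_comm ω j k, h3, zero_mul]
    · intro h0; exact absurd (mem_range.mpr he0) h0
  obtain ⟨j, hj⟩ : ∃ j, IsUnit (F j 1) := by
    by_contra hno
    push Not at hno
    refine hR.not_dvd_of_isUnit ((hR.isUnit_natCast he).mul h.one) ?_
    rw [← hsum]
    exact dvd_sum fun j _ => by_contra fun hd => hno j (hR.unit _ hd)
  have hωj : (ω ^ j) ^ e = 1 := by rw [pow_right_comm, hω.pow_eq_one, one_pow]
  have hstep : ∀ a, ω ^ j * F j (g * a) = F j a := fun a => by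
    simp only [F]
    rw [mul_sum, ← sum_range_shift (fun k => (ω ^ j) ^ k * f (g ^ k * a)) e (by
      simp only [hωj, hge, pow_zero])]
    refine sum_congr rfl fun k _ => ?_
    rw [pow_succ g, mul_assoc (g ^ k), pow_succ]; ring
  obtain ⟨d, rfl⟩ : ∃ d, e = d + 1 := ⟨e - 1, by omega⟩
  refine ⟨(ω ^ j) ^ d, F j, by rw [pow_right_comm, hωj, one_pow], ⟨fun a => ?_, fun a => ?_,
    fun a => ?_, hj⟩, fun k => ?_⟩
  · refine sum_congr rfl fun k _ => ?_
    rw [show g ^ k * (x * a) = g ^ k * x * (g ^ k)⁻¹ * (g ^ k * a) by group,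
      inv_zpowers h.l ((mem_normalizer_iff_xp hx).mp (pow_mem hg k))]
  · exact sum_congr rfl fun k _ => by rw [← mul_assoc, h.r]
  · simp only [F, mul_sum]
    rw [sum_comm]
    refine sum_congr rfl fun k _ => ?_
    rw [mul_left_comm, ← h.c, mul_sum, ← Equiv.sum_comp (MulAut.conj (g ^ k)).toEquiv
      (fun t => (ω ^ j) ^ k * (u t * f (t * (g ^ k * a))))]
    refine sum_congr rfl fun t _ => ?_
    simp only [MulEquiv.toEquiv_eq_coe, EquivLike.coe_coe, MulAut.conj_apply]
    rw [hc (g ^ k * t), inv_mul_cancel_left, mul_assoc (g ^ k * t), inv_mul_cancel_left,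
      mul_assoc (g ^ k)]
    ring
  · induction k with
    | zero => simp
    | succ k ih =>
      rw [pow_succ' _ k, pow_succ' _ k, mul_assoc, ← ih, ← hstep (g ^ k), ← mul_assoc, ← pow_succ,
        hωj, one_mul]

omit [IsDomain R] [IsPrincipalIdealRing R] in
theorem Lab.star {x : G} {u f : G → R} (hc : ∀ a b, u (a * b) = u (b * a))
    (hs : ∀ t, u t⁻¹ = u t) (h : Lab x u f) : Lab x u fun a => f a⁻¹ where
  l g := by rw [mul_inv_rev, ← h.r, inv_mul_cancel_right]
  r g := by rw [mul_inv_rev, ← h.l, mul_inv_cancel_left]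
  c g := by
    rw [← h.c, ← Equiv.sum_comp ((Equiv.inv G).trans (MulAut.conj g⁻¹).toEquiv)
      (fun t => u t * f (t * g⁻¹))]
    refine sum_congr rfl fun t _ => ?_
    simp only [MulEquiv.toEquiv_eq_coe, Equiv.trans_apply, Equiv.inv_apply, EquivLike.coe_coe,
      MulAut.conj_apply]
    rw [hc (g⁻¹ * t⁻¹), inv_mul_cancel_left, hs, inv_inv, mul_inv_cancel_right, mul_inv_rev]
  one := by simpa using h.one

/-- orthogonal ideals have no common (or opposite) label -/
theorem not_lab [Fact p.Prime] (hR : Good p R) {x g : G} (h : PO p x ⊥) {c : (ZMod p)ˣ}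
    (hg : Gen h.ord g c) {u u' f f' : G → R} (hc : ∀ a b, u (a * b) = u (b * a))
    (hs : ∀ t, u t⁻¹ = u t) (ho : ∀ a, ∑ t, u' (a * t⁻¹) * u t = 0) (hf : Lab x u f)
    (hf' : Lab x u' f') {w w' : R} (hw : w ^ eN h.ord = 1) (h1 : ∀ k : ℕ, f (g ^ k) = w ^ k * f 1)
    (h2 : ∀ k : ℕ, f' (g ^ k) = w' ^ k * f' 1) (hww : w' = w ∨ w * w' = 1) : False := by
  haveI := hR.charZero
  have key : ∀ {f : G → R} {w : R}, Lab x u f → (∀ k : ℕ, f (g ^ k) = w ^ k * f 1) →
      w * w' = 1 → False := fun {f w} hf h1 hww => by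
    refine sum_ne_zero hR h (F := fun a => f a * f' a) (fun a => by rw [hf.l, hf'.l])
      (fun a => by rw [hf.r, hf'.r]) (fun n hn => ?_) (hf.one.mul hf'.one)
      (pair_eq_zero hs hf.c hf'.c ho)
    obtain ⟨i, k, rfl⟩ := hg.exists_eq h hn
    show f _ * f' _ = _
    rw [inv_zpowers hf.l (xp_mem x i), inv_zpowers hf'.l (xp_mem x i), h1, h2, mul_mul_mul_comm,
      ← mul_pow, hww, one_pow, one_mul]
  rcases hww with rfl | hww
  · obtain ⟨d, hd⟩ : ∃ d, eN h.ord = d + 1 := ⟨eN h.ord - 1, by have := eN_pos h.ord; omega⟩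
    refine key (w := w' ^ d) (hf.star hc hs) (fun k => ?_) (by rw [← pow_succ, ← hd, hw])
    have : (g ^ k)⁻¹ = g ^ (d * k) := by
      rw [inv_eq_iff_mul_eq_one, ← pow_add, hg.pow_eq_one_iff]
      exact ⟨k, by rw [show Nat.card (EE h.ord) = d + 1 from hd]; ring⟩
    rw [this, h1, inv_one, pow_mul]
  · exact key hf h1 hww

end Cfsg.Agent.H4BT
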