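import Cfsg.Agent.H4.BT1
import Cfsg.Agent.H4.Galois

/-! Exceptional characters for a cyclic trivial intersection subgroup of odd order with dihedral
normalizer. -/

set_option autoImplicit false

namespace Cfsg.Agent.H4BT

open Cfsg Cfsg.Agent.H4 Cfsg.Agent.H5 Finset Subgroup
open scoped ComplexConjugate

variable {G : Type*} [Group G]

/-- `⟨g⟩` is a trivial intersection subgroup of order `2n+1` with dihedral normalizer -/
structure DT (g s : G) (n : ℕ) : Prop where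
  ord : orderOf g = 2 * n + 1
  inv : s * g * s⁻¹ = g⁻¹
  ti : ∀ a ∈ zpowers g, a ≠ 1 → ∀ t, t * a * t⁻¹ ∈ zpowers g → t ∈ zpowers g ∨ s⁻¹ * t ∈ zpowers g

open Classical in
/-- the induced class function -/
noncomputable def bet {R : Type*} [CommRing R] (g : G) (z z' : R) (a : G) : R :=
  if h : ∃ k : ℕ, IsConj (g ^ k) a then 2 - z ^ h.choose - z' ^ h.choose else 0

theorem bet_comm {R : Type*} [CommRing R] (g : G) (z z' : R) : bet g z z' = bet g z' z := by
  ext a; unfold bet; split_ifs <;> ring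

theorem map_bet {R S : Type*} [CommRing R] [CommRing S] (j : R →+* S) (g : G) (z z' : R) (a : G) :
    j (bet g z z' a) = bet g (j z) (j z') a := by
  unfold bet; split_ifs <;> simp [map_ofNat]

theorem geo {z : ℂ} {e : ℕ} (hz : z ^ e = 1) (h1 : z ≠ 1) : ∑ k ∈ range e, z ^ k = 0 := by
  have h2 := geom_sum_mul z e
  rw [hz, sub_self] at h2
  exact (mul_eq_zero.mp h2).resolve_right (sub_ne_zero.mpr h1)

theorem conj_root {z : ℂ} {e : ℕ} (he : e ≠ 0) (hz : z ^ e = 1) : conj z = z⁻¹ :=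
  (Complex.inv_eq_conj (Complex.norm_eq_one_of_pow_eq_one hz he)).symm

theorem sq_ne_one {z : ℂ} {n : ℕ} (hz : z ^ (2 * n + 1) = 1) (h1 : z ≠ 1) : z ^ 2 ≠ 1 := fun h => by
  rw [pow_succ, pow_mul, h, one_pow, one_mul] at hz
  exact h1 hz

variable [Fintype G]

theorem sum_zp (g : G) [Fintype (zpowers g)] (F : zpowers g → ℂ) :
    ∑ a, F a = ∑ k ∈ range (orderOf g), F ⟨g ^ k, pow_mem (mem_zpowers g) k⟩ := by
  rw [← Equiv.sum_comp (finEquivZPowers (isOfFinOrder_of_finite g)), Finset.sum_range]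
  rfl

namespace DT
variable {g s : G} {n : ℕ} (h : DT g s n)
include h

omit [Fintype G] in
theorem inv' {a : G} (ha : a ∈ zpowers g) : s * a * s⁻¹ = a⁻¹ := by
  obtain ⟨k, rfl⟩ := ha
  show s * g ^ k * s⁻¹ = (g ^ k)⁻¹
  rw [← conj_zpow, h.inv, inv_zpow]

theorem ne_inv {a : G} (ha : a ∈ zpowers g) (h1 : a ≠ 1) : a ≠ a⁻¹ := fun e => by
  have h2 : orderOf a ∣ 2 := orderOf_dvd_of_pow_eq_one (by rw [sq]; nth_rw 2 [e]; simp)
  have h3 : orderOf a ∣ 2 * n + 1 := h.ord ▸ orderOf_dvd_of_mem_zpowers ha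
  exact h1 (orderOf_eq_one_iff.mp (Nat.dvd_one.mp ((Nat.dvd_add_right (h2.mul_right n)).mp h3)))

theorem ind_val (φ : zpowers g → ℂ) (a : zpowers g) (ha : (a : G) ≠ 1) :
    indFun (zpowers g) φ a = φ a + φ a⁻¹ := by
  classical
  have hc : ∀ t ∈ zpowers g, t * a * t⁻¹ = a := fun t ht => by
    rw [mul_inv_eq_iff_eq_mul]
    exact congrArg Subtype.val (mul_comm' (⟨t, ht⟩ : zpowers g) a)
  have hs : ∀ t, s⁻¹ * t ∈ zpowers g → t * a * t⁻¹ = (a⁻¹ : zpowers g) := fun t ht => by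
    rw [show t * a * t⁻¹ = s * (s⁻¹ * t * a * (s⁻¹ * t)⁻¹) * s⁻¹ by group, hc _ ht, h.inv' a.2]
    rfl
  have e : ∀ t, extendByZero (zpowers g) φ (t * a * t⁻¹) =
      (if t ∈ zpowers g then φ a else 0) + if s⁻¹ * t ∈ zpowers g then φ a⁻¹ else 0 := fun t => by
    by_cases h1 : t ∈ zpowers g
    · rw [if_pos h1, if_neg fun h2 => h.ne_inv a.2 ha ((hc t h1).symm.trans (hs t h2)), hc t h1,
        extendByZero_coe, add_zero]
    by_cases h2 : s⁻¹ * t ∈ zpowers g
    · rw [if_neg h1, if_pos h2, hs t h2, extendByZero_coe, zero_add]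
    · rw [if_neg h1, if_neg h2, add_zero, extendByZero_not_mem]
      exact fun h3 => (h.ti a a.2 ha t h3).elim h1 h2
  have e2 : ∀ c : ℂ, ∑ t, (if t ∈ zpowers g then c else 0) = Nat.card (zpowers g) * c := fun c => by
    rw [← sum_filter, sum_const, nsmul_eq_mul, ← Fintype.card_subtype, Nat.card_eq_fintype_card]
  have e3 : (∑ t, if s⁻¹ * t ∈ zpowers g then φ a⁻¹ else 0) =
      ∑ t, if t ∈ zpowers g then φ a⁻¹ else 0 :=
    Equiv.sum_comp (Equiv.mulLeft s⁻¹) (fun t => if t ∈ zpowers g then φ a⁻¹ else 0)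
  rw [indFun_apply', sum_congr rfl fun t _ => e t, sum_add_distrib, e3, e2, e2, ← mul_add,
    inv_mul_cancel_left₀ natCard_ne_zero']

theorem exists_ind {z : ℂ} (hz : z ^ (2 * n + 1) = 1) : ∃ lam : zpowers g →* ℂˣ,
    (∀ k : ℕ, (lam ⟨g ^ k, pow_mem (mem_zpowers g) k⟩ : ℂ) = z ^ k) ∧
      (∀ k : ℕ, bet g z z⁻¹ (g ^ k) = 2 - z ^ k - z⁻¹ ^ k) ∧
      bet g z z⁻¹ = indFun (zpowers g) ((fun _ => 1) - fun a => (lam a : ℂ)) := by
  have hz0 : z ≠ 0 := by rintro rfl; simp at hz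
  let g' : zpowers g := ⟨g, mem_zpowers g⟩
  have hg : ∀ a : zpowers g, a ∈ zpowers g' := fun ⟨_, k, rfl⟩ => ⟨k, rfl⟩
  have ho : orderOf (Units.mk0 z hz0) ∣ orderOf g' := by
    rw [← Subgroup.orderOf_coe, h.ord]
    exact orderOf_dvd_of_pow_eq_one (Units.ext (by simpa using hz))
  let lam := monoidHomOfForallMemZpowers hg ho
  have hl : ∀ k : ℕ, (lam ⟨g ^ k, pow_mem (mem_zpowers g) k⟩ : ℂ) = z ^ k := fun k => by
    rw [show (⟨g ^ k, pow_mem (mem_zpowers g) k⟩ : zpowers g) = g' ^ k from rfl, map_pow,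
      monoidHomOfForallMemZpowers_apply_gen]
    simp
  have hv : ∀ k : ℕ, indFun (zpowers g) ((fun _ => 1) - fun a => (lam a : ℂ)) (g ^ k) =
      2 - z ^ k - z⁻¹ ^ k := fun k => by
    by_cases hk : g ^ k = 1
    · have h1 := hl k
      rw [show (⟨g ^ k, pow_mem (mem_zpowers g) k⟩ : zpowers g) = 1 from Subtype.ext hk,
        map_one] at h1
      rw [hk, indFun_one, inv_pow, ← h1]
      simp; norm_num
    · rw [h.ind_val _ ⟨g ^ k, pow_mem (mem_zpowers g) k⟩ hk]
      simp only [Pi.sub_apply, map_inv, Units.val_inv_eq_inv_val, hl, inv_pow]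
      ring
  have he : bet g z z⁻¹ = indFun (zpowers g) ((fun _ => 1) - fun a => (lam a : ℂ)) := by
    ext a
    unfold bet
    split_ifs with ha
    · rw [← (indFun_isClassFunction _ _).of_isConj ha.choose_spec, hv]
    · refine (indFun_eq_zero_of_not_conj _ _ fun t ht => ha ?_).symm
      obtain ⟨k, hk⟩ := mem_powers_iff_mem_zpowers.mpr ht
      exact ⟨k, (isConj_iff.mpr ⟨t, hk.symm⟩).symm⟩
  exact ⟨lam, hl, fun k => he ▸ hv k, he⟩

theorem bet_val {z : ℂ} (hz : z ^ (2 * n + 1) = 1) (k : ℕ) :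
    bet g z z⁻¹ (g ^ k) = 2 - z ^ k - z⁻¹ ^ k := (h.exists_ind hz).choose_spec.2.1 k

theorem bet_gen {z : ℂ} (hz : z ^ (2 * n + 1) = 1) : IsGeneralizedCharacter G (bet g z z⁻¹) := by
  obtain ⟨lam, -, -, e⟩ := h.exists_ind hz
  exact e ▸ isGeneralizedCharacter_indFun _ (isGen_one.sub (isCharacter_linear lam).isGen)

theorem bet_inner {z : ℂ} (hz : z ^ (2 * n + 1) = 1) {θ : G → ℂ} (hθ : IsClassFunction G θ) :
    (2 * n + 1 : ℂ) * classInner (bet g z z⁻¹) θ =
      ∑ k ∈ range (2 * n + 1), (1 - z ^ k) * conj (θ (g ^ k)) := by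
  haveI := Fintype.ofFinite (zpowers g)
  obtain ⟨lam, hl, -, e⟩ := h.exists_ind hz
  have := card_mul_classInner (φ := (fun _ => 1) - fun a => (lam a : ℂ))
    (ψ := fun a : zpowers g => θ a)
  rw [Nat.card_zpowers, sum_zp, h.ord] at this
  rw [e, inner_indFun_left _ _ hθ]
  simpa [hl] using this

theorem bet_one {z : ℂ} (hz : z ^ (2 * n + 1) = 1) (h1 : z ≠ 1) :
    classInner (bet g z z⁻¹) (fun _ => 1) = 1 := by
  apply mul_left_cancel₀ (by norm_cast : (2 * n + 1 : ℂ) ≠ 0)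
  rw [h.bet_inner hz (isClassFunction_const 1)]
  simp [sum_sub_distrib, geo hz h1]

theorem bet_self {z : ℂ} (hz : z ^ (2 * n + 1) = 1) (h1 : z ≠ 1) :
    classInner (bet g z z⁻¹) (bet g z z⁻¹) = 3 := by
  have hz0 : z ≠ 0 := by rintro rfl; simp at hz
  apply mul_left_cancel₀ (by norm_cast : (2 * n + 1 : ℂ) ≠ 0)
  rw [h.bet_inner hz (h.bet_gen hz).isClassFunction]
  have e : ∀ k : ℕ, (1 - z ^ k) * conj (bet g z z⁻¹ (g ^ k)) =
      3 - 3 * z ^ k - z⁻¹ ^ k + (z ^ 2) ^ k := fun k => by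
    rw [h.bet_val hz]
    simp only [map_sub, map_pow, map_inv₀, conj_root (by omega) hz, map_ofNat, inv_inv, inv_pow]
    have := pow_ne_zero k hz0
    rw [← pow_mul, mul_comm 2 k, pow_mul]
    field_simp; ring
  rw [sum_congr rfl fun k _ => e k]
  simp only [sum_add_distrib, sum_sub_distrib, ← mul_sum, geo hz h1,
    geo (by rw [inv_pow, hz, inv_one]) (inv_ne_one.mpr h1),
    geo (by rw [pow_right_comm, hz, one_pow]) (sq_ne_one hz h1)]
  simp

/-- Fourier inversion -/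
theorem fourier {ω : ℂ} (hω : IsPrimitiveRoot ω (2 * n + 1)) {θ : G → ℂ} (hθ : IsClassFunction G θ)
    {k : ℕ} (hk0 : k ≠ 0) (hk : k < 2 * n + 1) :
    ∑ j ∈ range (2 * n + 1), classInner (bet g (ω ^ j) (ω ^ j)⁻¹) θ * (ω ^ k)⁻¹ ^ j =
      -conj (θ (g ^ k)) := by
  have hj : ∀ j : ℕ, (ω ^ j) ^ (2 * n + 1) = 1 := fun j => by
    rw [pow_right_comm, hω.pow_eq_one, one_pow]
  have h0 : ∀ j : ℕ, ω ^ j ≠ 0 := fun j => pow_ne_zero _ (hω.ne_zero (by omega))
  apply mul_left_cancel₀ (by norm_cast : (2 * n + 1 : ℂ) ≠ 0)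
  simp only [mul_sum, ← mul_assoc, h.bet_inner (hj _) hθ, sum_mul]
  rw [sum_comm]
  have e : ∀ l : ℕ, ∑ j ∈ range (2 * n + 1), (1 - (ω ^ j) ^ l) * conj (θ (g ^ l)) * (ω ^ k)⁻¹ ^ j =
      -(∑ j ∈ range (2 * n + 1), (ω ^ l * (ω ^ k)⁻¹) ^ j) * conj (θ (g ^ l)) := fun l => by
    rw [← zero_sub, ← geo (z := (ω ^ k)⁻¹) (e := 2 * n + 1) (by rw [inv_pow, hj, inv_one])
      (inv_ne_one.mpr (hω.pow_ne_one_of_pos_of_lt hk0 hk)), ← sum_sub_distrib, sum_mul]
    refine sum_congr rfl fun j _ => ?_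
    rw [mul_pow, pow_right_comm ω l j]; ring
  rw [sum_congr rfl fun l _ => e l, sum_eq_single k]
  · simp [h0]; ring
  · intro l hl hlk
    rw [geo (by rw [mul_pow, inv_pow, hj, hj]; simp), neg_zero, zero_mul]
    rw [Ne, mul_inv_eq_one₀ (h0 k)]
    exact fun e => hlk (hω.pow_inj (mem_range.mp hl) hk e)
  · exact fun h' => absurd (mem_range.mpr hk) h'

omit h [Fintype G] in
theorem bet_sub {ω : ℂ} (hω : IsPrimitiveRoot ω (2 * n + 1)) {j : ℕ} (hj : j ≤ 2 * n + 1) :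
    bet g (ω ^ (2 * n + 1 - j)) (ω ^ (2 * n + 1 - j))⁻¹ = bet g (ω ^ j) (ω ^ j)⁻¹ := by
  have : ω ^ (2 * n + 1 - j) = (ω ^ j)⁻¹ := eq_inv_of_mul_eq_one_left (by
    rw [← pow_add, Nat.sub_add_cancel hj, hω.pow_eq_one])
  rw [this, inv_inv, bet_comm]

theorem psi_inner {ω : ℂ} (hω : IsPrimitiveRoot ω (2 * n + 1)) {ψ : G → ℂ}
    (hψ : IsIrrCharacter G ψ) (h1 : ψ ≠ fun _ => 1) {t : ℕ} (hd : ψ 1 = (2 * n + 1) * t + 1)
    {j : ℕ} (hj0 : j ≠ 0) (hj : j < 2 * n + 1) :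
    classInner (bet g (ω ^ j) (ω ^ j)⁻¹) ψ = 1 := by
  have hr : ∀ j : ℕ, (ω ^ j) ^ (2 * n + 1) = 1 := fun j => by
    rw [pow_right_comm, hω.pow_eq_one, one_pow]
  have he : (2 * n + 1 : ℂ) ≠ 0 := by norm_cast
  choose c hc using fun j => (h.bet_gen (hr j)).classInner_int hψ.isGen
  have hb : ∀ j, j ≠ 0 → j < 2 * n + 1 → c j ^ 2 ≤ 2 := fun j hj0 hj => by
    have hne := hω.pow_ne_one_of_pos_of_lt hj0 hj
    have := classInner_self_re_nonneg
      (φ := bet g (ω ^ j) (ω ^ j)⁻¹ - (fun _ => 1) - (c j : ℂ) • ψ)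
    simp only [classInner_sub_left, classInner_sub_right, classInner_smul_left,
      classInner_smul_right, h.bet_self (hr j) hne, h.bet_one (hr j) hne, hc,
      isGen_one.classInner_comm (h.bet_gen (hr j)), hψ.isGen.classInner_comm (h.bet_gen (hr j)),
      classInner_one_one, hψ.classInner_self, hψ.classInner_of_ne isIrrCharacter_one h1,
      isIrrCharacter_one.classInner_of_ne hψ h1.symm, map_intCast] at this
    norm_cast at this
    rw [show Int.subNatNat 3 1 = 2 from rfl, show Int.subNatNat 1 1 = 0 from rfl] at this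
    nlinarith
  have hsym : ∀ j, j ≤ 2 * n + 1 → c (2 * n + 1 - j) = c j := fun j hj => by
    have := hc (2 * n + 1 - j)
    rw [bet_sub hω hj, hc] at this
    exact_mod_cast this.symm
  have h0 : c 0 = 0 := by
    have := h.bet_inner (hr 0) hψ.isClassFunction
    rw [hc] at this
    simpa [he] using this
  haveI := Fintype.ofFinite (zpowers g)
  obtain ⟨m, hm⟩ := isCharacter_one.classInner_nat (hψ.isCharacter.restrict (zpowers g))
  have hm' := card_mul_classInner (φ := fun _ : zpowers g => (1 : ℂ)) (ψ := fun a : zpowers g => ψ a)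
  rw [Nat.card_zpowers, sum_zp, h.ord, hm] at hm'
  have hs : ∑ j ∈ range (2 * n + 1), c j = (2 * n + 1) * m - ((2 * n + 1) * t + 1) := by
    have : ∑ j ∈ range (2 * n + 1), (c j : ℂ) = (2 * n + 1) * m - ((2 * n + 1) * t + 1) := by
      apply mul_left_cancel₀ he
      simp only [mul_sum, ← hc, h.bet_inner (hr _) hψ.isClassFunction]
      rw [sum_comm]
      simp only [← sum_mul, sum_sub_distrib, sub_mul]
      rw [sum_eq_single 0 (f := fun k => (∑ j ∈ range (2 * n + 1), (ω ^ j) ^ k) * conj (ψ (g ^ k)))]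
      · simp only [one_mul] at hm'
        simp only [sum_const, card_range, nsmul_eq_mul, mul_one, pow_zero,
          hψ.isCharacter.conj_apply_one, ← mul_sum, ← hm']
        rw [hd]; push_cast; ring
      · intro k hk hk0
        rw [sum_congr rfl fun j _ => pow_right_comm ω j k,
          geo (hr k) (hω.pow_ne_one_of_pos_of_lt hk0 (mem_range.mp hk)), zero_mul]
      · simp
    exact_mod_cast this
  have hs2 : ∑ j ∈ range (2 * n + 1), c j = 2 * ∑ j ∈ range n, c (j + 1) := by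
    rw [sum_range_succ', h0, add_zero, two_mul n, sum_range_add, two_mul, add_right_inj,
      ← sum_range_reflect]
    refine sum_congr rfl fun j hj => ?_
    have := mem_range.mp hj
    rw [← hsym (j + 1) (by omega)]
    congr 1; omega
  have hle : ∀ j ∈ range n, c (j + 1) ≤ 1 := fun j hj => by
    have := hb (j + 1) (by omega) (by have := mem_range.mp hj; omega); nlinarith
  have hge : ∀ j ∈ range n, -1 ≤ c (j + 1) := fun j hj => by
    have := hb (j + 1) (by omega) (by have := mem_range.mp hj; omega); nlinarith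
  have h2 := sum_le_sum hle
  have h3 := sum_le_sum hge
  simp only [sum_const, card_range, nsmul_eq_mul, mul_one, mul_neg] at h2 h3
  have h4 : 2 * ∑ j ∈ range n, c (j + 1) + 1 = (2 * n + 1) * (m - t : ℤ) := by
    rw [← hs2, hs]; ring
  have h5 : (m - t : ℤ) = 1 := by
    generalize (m - t : ℤ) = r at h4
    have : r ≠ 0 := by rintro rfl; omega
    have : r < 2 := by nlinarith
    have : -1 < r := by nlinarith
    omega
  have h6 : ∑ j ∈ range n, c (j + 1) = ∑ j ∈ range n, (1 : ℤ) := by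
    rw [h5] at h4; simp; omega
  have h7 := (sum_eq_sum_iff_of_le hle).mp h6
  rw [hc]
  rcases le_or_gt j n with hjn | hjn
  · rw [show j = j - 1 + 1 by omega, h7 _ (mem_range.mpr (by omega))]; simp
  · rw [← hsym j hj.le, show 2 * n + 1 - j = 2 * n - j + 1 by omega,
      h7 _ (mem_range.mpr (by omega))]; simp

/-- the exceptional characters -/
theorem exc {ω : ℂ} (hω : IsPrimitiveRoot ω (2 * n + 1)) {ψ : G → ℂ}
    (hψ : IsIrrCharacter G ψ) (h1 : ψ ≠ fun _ => 1) {t : ℕ} (hd : ψ 1 = (2 * n + 1) * t + 1)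
    {j : ℕ} (hj0 : j ≠ 0) (hj : j < 2 * n + 1) :
    IsIrrCharacter G ((fun _ => 1) + ψ - bet g (ω ^ j) (ω ^ j)⁻¹) := by
  have hr : (ω ^ j) ^ (2 * n + 1) = 1 := by rw [pow_right_comm, hω.pow_eq_one, one_pow]
  have hne := hω.pow_ne_one_of_pos_of_lt hj0 hj
  refine ((isGen_one.add hψ.isGen).sub (h.bet_gen hr)).isIrr_of_pos ?_ ?_
  · simp only [classInner_sub_left, classInner_sub_right, classInner_add_left,
      classInner_add_right, h.bet_self hr hne, h.bet_one hr hne, h.psi_inner hω hψ h1 hd hj0 hj,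
      isGen_one.classInner_comm (h.bet_gen hr), hψ.isGen.classInner_comm (h.bet_gen hr),
      classInner_one_one, hψ.classInner_self, hψ.classInner_of_ne isIrrCharacter_one h1,
      isIrrCharacter_one.classInner_of_ne hψ h1.symm]
    norm_num
  · have := h.bet_val hr 0
    simp only [pow_zero] at this
    simp only [Pi.sub_apply, Pi.add_apply, this, hd]
    norm_num; positivity

theorem psi_val {ω : ℂ} (hω : IsPrimitiveRoot ω (2 * n + 1)) {ψ : G → ℂ}
    (hψ : IsIrrCharacter G ψ) (h1 : ψ ≠ fun _ => 1) {t : ℕ} (hd : ψ 1 = (2 * n + 1) * t + 1)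
    {k : ℕ} (hk0 : k ≠ 0) (hk : k < 2 * n + 1) : ψ (g ^ k) = 1 := by
  have := h.fourier hω hψ.isClassFunction hk0 hk
  have h2 := geo (z := (ω ^ k)⁻¹) (e := 2 * n + 1)
    (by rw [inv_pow, pow_right_comm, hω.pow_eq_one, one_pow, inv_one])
    (inv_ne_one.mpr (hω.pow_ne_one_of_pos_of_lt hk0 hk))
  have h0 := h.bet_inner (z := ω ^ 0) (by simp) hψ.isClassFunction
  simp only [pow_zero, one_pow, sub_self, zero_mul, sum_const_zero, mul_eq_zero] at h0
  rw [sum_range_succ'] at this h2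
  rw [sum_congr rfl fun j hj => by
    rw [h.psi_inner hω hψ h1 hd (by omega) (by have := mem_range.mp hj; omega), one_mul],
    pow_zero ω, h0.resolve_left (by norm_cast), zero_mul, add_zero,
    eq_neg_of_add_eq_zero_left h2, pow_zero, neg_inj] at this
  simpa using congrArg conj this.symm

theorem other_val {ω : ℂ} (hω : IsPrimitiveRoot ω (2 * n + 1)) {ψ : G → ℂ}
    (hψ : IsIrrCharacter G ψ) (h1 : ψ ≠ fun _ => 1) {t : ℕ} (hd : ψ 1 = (2 * n + 1) * t + 1)
    {ζ : G → ℂ} (hζ : IsIrrCharacter G ζ) (n1 : ζ ≠ fun _ => 1) (n2 : ζ ≠ ψ)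
    (n3 : ∀ j, j ≠ 0 → j < 2 * n + 1 → ζ ≠ (fun _ => 1) + ψ - bet g (ω ^ j) (ω ^ j)⁻¹)
    {k : ℕ} (hk0 : k ≠ 0) (hk : k < 2 * n + 1) : ζ (g ^ k) = 0 := by
  have := h.fourier hω hζ.isClassFunction hk0 hk
  rw [sum_eq_zero, eq_comm, neg_eq_zero, map_eq_zero] at this
  · exact this
  intro j hj
  rcases eq_or_ne j 0 with rfl | hj0
  · have h0 := h.bet_inner (z := ω ^ 0) (by simp) hζ.isClassFunction
    simp only [pow_zero, one_pow, sub_self, zero_mul, sum_const_zero, mul_eq_zero] at h0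
    rw [pow_zero, h0.resolve_left (by norm_cast), zero_mul]
  · have e := (h.exc hω hψ h1 hd hj0 (mem_range.mp hj)).classInner_of_ne hζ
      (n3 j hj0 (mem_range.mp hj)).symm
    rw [classInner_sub_left, classInner_add_left, isIrrCharacter_one.classInner_of_ne hζ n1.symm,
      hψ.classInner_of_ne hζ n2.symm, add_zero, zero_sub, neg_eq_zero] at e
    rw [e, zero_mul]

end DT

end Cfsg.Agent.H4BT
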