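import Cfsg.Agent.H4.BT2
import Cfsg.Agent.H19.BD5
import Cfsg.Agent.S4503
import Cfsg.Agent.S4504

/-! A simple group with self-centralizing Sylow subgroup of order `p`, a unique character of
degree `p` and dihedral normalizer of the (odd) inertial complement. -/

set_option autoImplicit false

namespace Cfsg.Agent.H4BT

open Cfsg Cfsg.Agent.H4 Cfsg.Agent.H5 Cfsg.Agent.H19 Finset Subgroup
open scoped ComplexConjugate

variable {G : Type*} [Group G] [Fintype G] {p : ℕ} [hp : Fact p.Prime] {x g : G}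
  {c : (ZMod p)ˣ}

/-- the (scaled) central idempotent of a set of irreducible characters -/
noncomputable def UU (S : Finset (IrrCharacter G)) (t : G) : ℂ :=
  ∑ ζ ∈ S, (ζ : G → ℂ) 1 * (ζ : G → ℂ) t⁻¹

omit [Fintype G] in
theorem UU_comm (S : Finset (IrrCharacter G)) (a b : G) : UU S (a * b) = UU S (b * a) :=
  sum_congr rfl fun ζ _ => by rw [mul_inv_rev, mul_inv_rev, ζ.2.isClassFunction.mul_comm]

theorem UU_conv [DecidableEq (IrrCharacter G)] (S T : Finset (IrrCharacter G)) (a : G) :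
    ∑ t, UU S (a * t⁻¹) * UU T t = Fintype.card G * UU (S ∩ T) a := by
  simp only [UU, sum_mul_sum]
  rw [sum_comm, ← filter_mem_eq_inter, sum_filter, mul_sum]
  refine sum_congr rfl fun ζ _ => ?_
  rw [sum_comm]
  have e : ∀ η : IrrCharacter G, ∑ t, (ζ : G → ℂ) 1 * (ζ : G → ℂ) (a * t⁻¹)⁻¹ *
      ((η : G → ℂ) 1 * (η : G → ℂ) t⁻¹) =
      if η = ζ then Fintype.card G * ((ζ : G → ℂ) 1 * (ζ : G → ℂ) a⁻¹) else 0 := fun η => by
    have h1 := ζ.2.sum_apply_mul_mul_conj η.2.isClassFunction a⁻¹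
    simp only [mul_inv_rev, inv_inv, η.2.isCharacter.apply_inv, mul_mul_mul_comm _ _ ((η : G → ℂ) 1)]
    rw [← mul_sum, h1, irr_classInner, Nat.card_eq_fintype_card]
    have := ζ.2.apply_one_ne_zero
    split_ifs with h2 h3 h3
    · subst h2; field_simp
    · exact absurd h2.symm h3
    · exact absurd h3.symm h2
    · simp
  rw [sum_congr rfl fun η _ => e η, sum_ite_eq']
  split_ifs <;> simp

theorem exists_lam (h : PO p x ⊥) (hg : Gen h.ord g c) {w : ℂ} (hw : w ^ eN h.ord = 1) :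
    ∃ lam : NN x →* ℂˣ, ∀ (i : ZMod p) (l : ℕ) (hm : xp x i * g ^ l ∈ NN x),
      (lam ⟨_, hm⟩ : ℂ) = w ^ l := by
  have hw0 : w ≠ 0 := by rintro rfl; simp [(eN_pos h.ord).ne'] at hw
  let c' : zpowers c := ⟨c, mem_zpowers c⟩
  have hc : ∀ a : zpowers c, a ∈ zpowers c' := fun ⟨_, k, rfl⟩ => ⟨k, rfl⟩
  have ho : orderOf (Units.mk0 w hw0) ∣ orderOf c' := by
    rw [← Subgroup.orderOf_coe, hg.ordc]
    exact orderOf_dvd_of_pow_eq_one (Units.ext (by simpa using hw))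
  let μ := monoidHomOfForallMemZpowers hc ho
  let α : NN x →* zpowers c := (actN h.ord).codRestrict _ fun n => by
    obtain ⟨j, hj⟩ := hg.gen _ (actN_mem h.ord n)
    exact hj ▸ pow_mem (mem_zpowers c) j
  refine ⟨μ.comp α, fun i l hm => ?_⟩
  have e : α ⟨_, hm⟩ = c' ^ l := Subtype.ext (actN_eq h.ord _ (by
    show xp x i * g ^ l * x * (xp x i * g ^ l)⁻¹ = xp x ((c ^ l : (ZMod p)ˣ) : ZMod p)
    rw [show xp x i * g ^ l * x * (xp x i * g ^ l)⁻¹ =
      xp x i * (g ^ l * x * (g ^ l)⁻¹) * (xp x i)⁻¹ by group, conj_pow_xp h.ord hg.cj,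
      ← xp_neg h.ord, ← xp_add h.ord, ← xp_add h.ord]
    congr 1; ring))
  rw [MonoidHom.comp_apply, e, map_pow, monoidHomOfForallMemZpowers_apply_gen]
  simp

theorem label_mem (h : PO p x ⊥) (hg : Gen h.ord g c) {χ : IrrCharacter G} {z w : ℂ}
    (hz : z ^ eN h.ord = 1) (hw : w ^ eN h.ord = 1)
    (hχ : ∀ l : ℕ, fx p x χ (g ^ l) = z ^ l + z⁻¹ ^ l) {F : G → ℂ} (hl : ∀ a, F (x * a) = F a)
    (hF : ∀ l : ℕ, F (g ^ l) = w ^ l * F 1)
    (hc : ∀ a, ∑ t, UU {χ} t * F (t * a) = Fintype.card G * F a) (h1 : F 1 ≠ 0) :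
    w = z ∨ w = z⁻¹ := by
  by_contra hne
  push Not at hne
  haveI := Fintype.ofFinite (NN x)
  obtain ⟨lam, hlam⟩ := exists_lam h hg hw
  obtain ⟨μ, hμ⟩ := exists_lam h hg hz
  obtain ⟨ν, hν⟩ := exists_lam h hg (w := z⁻¹) (by rw [inv_pow, hz, inv_one])
  have hm : xp x (0 : ZMod p) * g ^ 1 ∈ NN x := mul_mem (xp_mem_NN x _) (hg.pow_mem 1)
  have i0 : classInner (fun y : NN x => (χ : G → ℂ) y) (fun y => (lam y : ℂ)) = 0 := by
    rw [inner_res_eq_fx h.ord _ fun i y => ?_]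
    · have e : (fun y : NN x => fx p x χ y) = (fun y => (μ y : ℂ)) + fun y => (ν y : ℂ) := by
        ext ⟨y, hy⟩
        obtain ⟨i, l, rfl⟩ := hg.exists_eq h hy
        simp only [Pi.add_apply, hμ, hν, fx_xp_mul h.ord, hχ]
      rw [e, classInner_add_left, (isIrrCharacter_linear μ).classInner_of_ne
        (isIrrCharacter_linear lam) fun e => hne.1 ?_, (isIrrCharacter_linear ν).classInner_of_ne
        (isIrrCharacter_linear lam) fun e => hne.2 ?_, add_zero]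
      · have := (hlam 0 1 hm).symm.trans ((congrFun e ⟨_, hm⟩).symm.trans (hν 0 1 hm))
        simpa using this
      · have := (hlam 0 1 hm).symm.trans ((congrFun e ⟨_, hm⟩).symm.trans (hμ 0 1 hm))
        simpa using this
    · have := hlam i 0 (by simpa using xp_mem_NN x i)
      simp only [pow_zero, mul_one] at this
      rw [map_mul, Units.val_mul, this, one_mul]
  obtain ⟨χ, d, ρ, hρ, rfl⟩ := χ
  have h2 := proj_eq_zero_of_inner (ρ.comp (NN x).subtype) (isIrrCharacter_linear lam) i0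
  have h3 : ∀ b, ∑ y : NN x, (lam y⁻¹ : ℂ) * ρ.character (y * b) = 0 := fun b => by
    have := congrArg (fun T => LinearMap.trace ℂ _ (T * ρ b)) h2
    simp only [sum_mul, map_sum, smul_mul_assoc, map_smul, smul_eq_mul, MonoidHom.comp_apply,
      ← map_mul, zero_mul, map_zero] at this
    exact this
  have h4 : ∀ y : NN x, (lam y⁻¹ : ℂ) * F y = F 1 := by
    rintro ⟨y, hy⟩
    obtain ⟨i, l, rfl⟩ := hg.exists_eq h hy
    show _ * F (xp x i * g ^ l) = _
    rw [inv_zpowers hl (xp_mem x i), hF, ← hlam i l hy, ← mul_assoc, ← Units.val_mul, ← map_mul,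
      inv_mul_cancel, map_one, Units.val_one, one_mul]
  have h5 : ∑ y : NN x, (lam y⁻¹ : ℂ) * (Fintype.card G * F y) = 0 := by
    simp only [← hc, mul_sum, UU, sum_singleton]
    have : ∀ y : NN x, ∑ t, (lam y⁻¹ : ℂ) * (ρ.character 1 * ρ.character t⁻¹ * F (t * y)) =
        ∑ b, ρ.character 1 * F b * ((lam y⁻¹ : ℂ) * ρ.character (y * b⁻¹)) := fun y => by
      rw [← Equiv.sum_comp (Equiv.mulRight (y : G))
        (fun b => ρ.character 1 * F b * ((lam y⁻¹ : ℂ) * ρ.character (y * b⁻¹)))]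
      refine sum_congr rfl fun t _ => ?_
      simp only [Equiv.coe_mulRight, mul_inv_rev, mul_inv_cancel_left]
      ring
    rw [sum_congr rfl fun y _ => this y, sum_comm]
    exact sum_eq_zero fun b _ => by rw [← mul_sum, h3, mul_zero]
  simp only [mul_left_comm _ (Fintype.card G : ℂ), h4, sum_const, nsmul_eq_mul, mul_eq_zero,
    Nat.cast_eq_zero, card_univ, Fintype.card_ne_zero, false_or] at h5
  exact h1 h5

theorem exists_lab_UU {R : Type*} [CommRing R] [IsDomain R] [IsPrincipalIdealRing R]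
    (hR : Good p R) (j : R →+* ℂ) (hj : Function.Injective j) (h : PO p x ⊥) (hg : Gen h.ord g c)
    {ω : R} (hω : IsPrimitiveRoot ω (eN h.ord)) (S : Finset (IrrCharacter G)) {u : G → R}
    (hu : ∀ t, j (u t) = UU S t) {s : ℕ} (hs : 0 < s)
    (h1 : ∑ ζ ∈ S, (ζ : G → ℂ) 1 * sg p x ζ = s) :
    ∃ (w : R) (f : G → R), w ^ eN h.ord = 1 ∧ Lab x u f ∧ ∀ k : ℕ, f (g ^ k) = w ^ k * f 1 := by
  classical
  have hc : ∀ a b, u (a * b) = u (b * a) := fun a b => hj (by rw [hu, hu, UU_comm])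
  obtain ⟨f, hf⟩ := exists_lab hR (x := x) (by rw [← h.ord, pow_orderOf_eq_one]) hc (fun a => hj (by
    have := UU_conv S S a
    rw [inter_self] at this
    simp only [map_sum, map_mul, map_natCast, hu, ← this]
    exact sum_congr rfl fun t _ => by rw [UU_comm, mul_comm])) hs (hj (by
    simp only [map_sum, map_add, map_natCast, hu, UU, inv_inv, inv_one, ← h1, ← sum_add_distrib,
      ← mul_add, ← sum_xp_eq]
    rw [sum_comm]
    refine sum_congr rfl fun ζ _ => ?_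
    rw [← mul_sum]
    congr 1
    exact sum_nbij' (fun k => (k : ZMod p)) ZMod.val (by simp) (fun i _ => mem_range.mpr i.val_lt)
      (fun k hk => ZMod.val_cast_of_lt (mem_range.mp hk)) (by simp)
      fun k _ => by rw [xp_natCast h.ord]))
  refine hf.proj hR h.ord hg.mem ((hg.pow_eq_one_iff _).mpr dvd_rfl) (fun hd => ?_) hω hc
  have := eN_mul' h.ord
  exact hp.out.one_lt.ne' (Nat.dvd_one.mp
    ((Nat.dvd_add_right (hd.mul_right (tN h.ord))).mp (by rw [this])))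

theorem sg_map (σ : ℂ ≃+* ℂ) (θ : G → ℂ) : sg p x (fun a => σ (θ a)) = σ (sg p x θ) := by
  simp [sg]

/-- the positive vertices of the Brauer tree do not vanish on the inertial complement -/
theorem no_other_aux {R : Type*} [CommRing R] [IsDomain R] [IsPrincipalIdealRing R]
    (hR : Good p R) (j : R →+* ℂ) (hj : Function.Injective j) (h : PO p x ⊥) (hg : Gen h.ord g c)
    {ω : R} (hω : IsPrimitiveRoot ω (eN h.ord)) {s : G} {n : ℕ} (hD : DT g s n)
    {ψ : G → ℂ} (hψ : IsIrrCharacter G ψ) (hd : ψ 1 = p) (hi : ∀ a, ∃ m : ℤ, ψ a = m)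
    (hx : ∀ i : ZMod p, i ≠ 0 → ψ (xp x i) = 0) (hn : 0 < n) {ζ₀ : IrrCharacter G}
    (h0 : ∀ k, k ≠ 0 → k < 2 * n + 1 → (ζ₀ : G → ℂ) (g ^ k) = 0) {s₀ : ℕ} (hs₀ : 0 < s₀)
    (h1 : sg p x ζ₀ = s₀) : False := by
  classical
  have he : eN h.ord = 2 * n + 1 := hg.ordg.symm.trans hD.ord
  have hω' : IsPrimitiveRoot (j ω) (2 * n + 1) := he ▸ hω.map_of_injective hj
  let P : IrrCharacter G → Prop := fun ζ =>
    (∀ k, k ≠ 0 → k < 2 * n + 1 → (ζ : G → ℂ) (g ^ k) = 0) ∧ ∃ s : ℕ, 0 < s ∧ sg p x ζ = s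
  let A : Finset (IrrCharacter G) := univ.filter P
  have hP : ∀ (σ : ℂ ≃+* ℂ) ζ, ζ ∈ A → (⟨_, ζ.2.map_ringHom σ⟩ : IrrCharacter G) ∈ A := by
    intro σ ζ hζ
    obtain ⟨a, s, b, d⟩ := (mem_filter.mp hζ).2
    exact mem_filter.mpr ⟨mem_univ _, fun k k0 k1 => by simp [a k k0 k1], s, b,
      (sg_map σ _).trans (by rw [d, map_natCast])⟩
  have hfix : ∀ (σ : ℂ ≃+* ℂ) t, σ (UU A t) = UU A t := fun σ t => by
    rw [UU, map_sum]
    exact sum_nbij' (fun ζ => ⟨_, ζ.2.map_ringHom σ⟩) (fun ζ => ⟨_, ζ.2.map_ringHom σ.symm⟩)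
      (hP σ) (hP σ.symm) (fun ζ _ => Subtype.ext (by ext; simp))
      (fun ζ _ => Subtype.ext (by ext; simp)) fun ζ _ => by simp
  choose m hm using fun t => exists_int_of_forall_ringEquiv (z := UU A t)
    (IsIntegral.sum _ fun ζ _ => (ζ.2.isCharacter.isIntegral _).mul (ζ.2.isCharacter.isIntegral _))
    fun σ => hfix σ t
  let u : G → R := fun t => m t
  have hu : ∀ t, j (u t) = UU A t := fun t => by rw [hm, map_intCast]
  have hus : ∀ t, u t⁻¹ = u t := fun t => hj (by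
    rw [hu, hu, ← hfix Complex.conjAe.toRingEquiv t, UU, UU, map_sum]
    refine sum_congr rfl fun ζ _ => ?_
    rw [map_mul, inv_inv, ζ.2.isCharacter.apply_inv]
    simp [ζ.2.isCharacter.conj_apply_one])
  obtain ⟨S, hS⟩ : ∃ S : ℕ, 0 < S ∧ ∑ ζ ∈ A, (ζ : G → ℂ) 1 * sg p x ζ = S := by
    choose! sv hsv using fun ζ (hζ : ζ ∈ A) => (mem_filter.mp hζ).2.2
    refine ⟨∑ ζ ∈ A, charDegree (ζ : G → ℂ) * sv ζ, sum_pos (fun ζ hζ =>
      Nat.mul_pos ζ.2.charDegree_pos (hsv ζ hζ).1)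
      ⟨ζ₀, mem_filter.mpr ⟨mem_univ _, h0, s₀, hs₀, h1⟩⟩, ?_⟩
    push_cast
    exact sum_congr rfl fun ζ hζ => by rw [(hsv ζ hζ).2, ζ.2.isCharacter.charDegree_cast]
  obtain ⟨w, f, hw, hf, hfw⟩ := exists_lab_UU hR j hj h hg hω A hu hS.1 hS.2
  have hc : ∀ a b, u (a * b) = u (b * a) := fun a b => hj (by rw [hu, hu, UU_comm])
  have horth : ∀ (χ : IrrCharacter G) (u' : G → R), (∀ t, j (u' t) = UU {χ} t) →
      (χ : G → ℂ) g ≠ 0 → ∀ a, ∑ t, u' (a * t⁻¹) * u t = 0 := fun χ u' hu' hχ a => hj (by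
    simp only [map_sum, map_mul, hu, hu', UU_conv, map_zero]
    rw [singleton_inter_of_notMem fun hm => hχ (by
      simpa using (mem_filter.mp hm).2.1 1 one_ne_zero (by omega)), UU, sum_empty, mul_zero])
  obtain ⟨k, hk, hkw⟩ := hω'.eq_pow_of_pow_eq_one (ξ := j w) (by rw [← map_pow, ← he, hw, map_one])
  rcases eq_or_ne k 0 with rfl | hk0
  · have : w = 1 := hj (by rw [← hkw]; simp)
    exact not_lab hR h hg (u' := fun _ => 1) (f' := fun _ => 1) (w' := 1) hc hus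
      (horth (irrOne G) (fun _ => 1) (fun t => by simp [UU]) (by simp)) hf
      ⟨fun _ => rfl, fun _ => rfl, fun _ => by simp, isUnit_one⟩ hw hfw (by simp) (Or.inl this.symm)
  have ht : ψ 1 = (2 * n + 1) * tN h.ord + 1 := by
    have := eN_mul' h.ord
    rw [he] at this
    rw [hd]; exact_mod_cast this.symm
  have hψ1 : ψ ≠ fun _ => 1 := fun e => by
    rw [e] at hd; exact hp.out.one_lt.ne (Nat.cast_injective (R := ℂ) (Nat.cast_one.trans hd))
  let χ : IrrCharacter G := ⟨_, hD.exc hω' hψ hψ1 ht hk0 hk⟩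
  have hz : (j ω ^ k) ^ (2 * n + 1) = 1 := by rw [pow_right_comm, hω'.pow_eq_one, one_pow]
  have hχ : ∀ a, (χ : G → ℂ) a = 1 + ψ a - bet g (j ω ^ k) (j ω ^ k)⁻¹ a := fun a => rfl
  have hχ1 : (χ : G → ℂ) 1 = p + 1 := by
    have := hD.bet_val hz 0
    simp only [pow_zero] at this
    rw [hχ, this, hd]; ring
  have hχx : ∀ i : ZMod p, i ≠ 0 → (χ : G → ℂ) (xp x i) = 1 := fun i hi => by
    rw [hχ, hx i hi, bet, dif_neg, add_zero, sub_zero]
    rintro ⟨l, hl⟩
    obtain ⟨a, ha⟩ := isConj_iff.mp hl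
    have h2 : orderOf (g ^ l) = p := by
      rw [← orderOf_xp h.ord hi, ← ha]; exact ((MulAut.conj a).orderOf_eq _).symm
    have h3 : p ∣ eN h.ord := h2.symm.dvd.trans ((orderOf_pow_dvd l).trans hg.ordg.dvd)
    have := eN_mul' h.ord
    exact hp.out.one_lt.ne' (Nat.dvd_one.mp
      ((Nat.dvd_add_right (h3.mul_right (tN h.ord))).mp (by rw [this])))
  have hχg : ∀ l, l ≠ 0 → l < 2 * n + 1 → (χ : G → ℂ) (g ^ l) = (j ω ^ k) ^ l + (j ω ^ k)⁻¹ ^ l :=
    fun l l0 l1 => by rw [hχ, hD.psi_val hω' hψ hψ1 ht l0 l1, hD.bet_val hz]; ring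
  choose mψ hmψ using hi
  have hinv : (j ω ^ k)⁻¹ = j ((ω ^ k) ^ (2 * n)) := by
    rw [map_pow, map_pow]; exact inv_eq_of_mul_eq_one_right (by rw [← pow_succ', hz])
  let u' : G → R := fun t => (p + 1) * (1 + mψ t⁻¹ - bet g (ω ^ k) ((ω ^ k) ^ (2 * n)) t⁻¹)
  have hu' : ∀ t, j (u' t) = UU {χ} t := fun t => by
    rw [UU, sum_singleton, hχ1, hχ, hmψ, hinv]
    simp [u', map_bet]
  obtain ⟨w', f', hw', hf', hfw'⟩ := exists_lab_UU hR j hj h hg hω {χ} hu' (s := (p + 1) * (p - 1))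
    (Nat.mul_pos (by omega) (by have := hp.out.one_lt; omega)) (by
      rw [sum_singleton, hχ1, sg_const hχx, Nat.cast_mul, Nat.cast_pred hp.out.pos]; push_cast; ring)
  have hlab := label_mem h hg (χ := χ) (z := j ω ^ k) (w := j w') (F := fun a => j (f' a))
    (he ▸ hz) (by rw [← map_pow, hw', map_one]) (fun l => by
      have hl : g ^ l = g ^ (l % (2 * n + 1)) := by rw [← hD.ord, pow_mod_orderOf]
      rw [hl, pow_eq_pow_mod l hz, pow_eq_pow_mod l (a := (j ω ^ k)⁻¹)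
        (by rw [inv_pow, hz, inv_one])]
      rcases eq_or_ne (l % (2 * n + 1)) 0 with e | e
      · rw [e, pow_zero, fx_one, hχ1, sg_const hχx]
        have := p_ne_zero_C (p := p)
        field_simp; ring
      · have hlt := Nat.mod_lt l (by omega : 0 < 2 * n + 1)
        rw [fx_eq_of_not_commute h.ord χ.2.isClassFunction (hg.pow_mem _) (hg.not_commute
          (pow_ne_one_of_lt_orderOf e (hD.ord ▸ hlt))), hχg _ e hlt])
    (fun a => by rw [hf'.l]) (fun l => by rw [hfw', map_mul, map_pow])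
    (fun a => by simp only [← hu', ← map_mul, ← map_sum, hf'.c]; rw [map_mul, map_natCast])
    ((map_ne_zero_iff j hj).mpr hf'.one.ne_zero)
  refine not_lab hR h hg hc hus (horth χ u' hu' ?_) hf hf' hw hfw hfw' (hlab.imp
    (fun e => hj (e.trans hkw)) fun e => hj ?_)
  · have := hχg 1 one_ne_zero (by omega)
    simp only [pow_one] at this
    rw [this]
    intro e
    have h0 : j ω ^ k ≠ 0 := pow_ne_zero _ (hω'.ne_zero (by omega))
    have e2 : (j ω ^ k) ^ 2 = -1 := by field_simp at e; linear_combination e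
    have e3 : ((j ω ^ k) ^ 2) ^ (2 * n + 1) = 1 := by rw [pow_right_comm, hz, one_pow]
    rw [e2, pow_succ, pow_mul] at e3
    norm_num at e3
  · rw [map_mul, e, ← hkw, map_one, mul_inv_cancel₀ (pow_ne_zero _ (hω'.ne_zero (by omega)))]

theorem no_other (h : PO p x ⊥) (hg : Gen h.ord g c) {s : G} {n : ℕ} (hD : DT g s n)
    {ψ : G → ℂ} (hψ : IsIrrCharacter G ψ) (hd : ψ 1 = p) (hi : ∀ a, ∃ m : ℤ, ψ a = m)
    (hx : ∀ i : ZMod p, i ≠ 0 → ψ (xp x i) = 0) (hn : 0 < n) {ζ₀ : IrrCharacter G}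
    (h0 : ∀ k, k ≠ 0 → k < 2 * n + 1 → (ζ₀ : G → ℂ) (g ^ k) = 0) {s₀ : ℕ} (hs₀ : 0 < s₀)
    (h1 : sg p x ζ₀ = s₀) : False := by
  obtain ⟨j, hj⟩ := exists_witt_complex p (ZMod p)
  have h2 := IsPrimitiveRoot.orderOf c
  rw [hg.ordc] at h2
  exact no_other_aux (good_witt p (ZMod p)) j hj h hg
    ((IsPrimitiveRoot.coe_units_iff.mpr h2).map_of_injective
      (f := WittVector.teichmuller p) fun a b e => by
        simpa using congrArg (fun v : WittVector p (ZMod p) => v.coeff 0) e)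
    hD hψ hd hi hx hn h0 hs₀ h1

theorem odd_case [IsSimpleGroup G] (h : PO p x ⊥) (hg : Gen h.ord g c) {s : G} {n : ℕ}
    (hD : DT g s n) (hn : 0 < n) {ψ : IrrCharacter G} (hd : charDegree (ψ : G → ℂ) = p)
    (hu : ∀ ζ : IrrCharacter G, charDegree (ζ : G → ℂ) = p → ζ = ψ) :
    Nonempty (G ≃* Matrix.ProjectiveSpecialLinearGroup (Fin 2) (ZMod p)) := by
  classical
  have he : eN h.ord = 2 * n + 1 := hg.ordg.symm.trans hD.ord
  have het := eN_mul' h.ord
  rw [he] at het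
  have ht0 := tN_pos h.ord
  have hp3 : 2 * n + 1 < p := by nlinarith
  have ht2 : 2 ≤ tN h.ord := by
    by_contra hlt
    have : tN h.ord = 1 := by omega
    rw [this] at het
    exact absurd (hp.out.eq_one_or_self_of_dvd 2 ⟨n + 1, by omega⟩) (by omega)
  obtain ⟨B⟩ := h.nonempty_BD
  have hmod : ∀ {a b : ℤ}, a ≡ b [ZMOD p] → a - b < p → b - a < p → a = b := fun {a b} e h1 h2 => by
    have := Int.eq_zero_of_abs_lt_dvd e.dvd (abs_lt.mpr ⟨by omega, h2⟩)
    omega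
  have hzm := B.z_mod
  rw [show Nat.card (EE h.ord) = 2 * n + 1 from he] at hzm
  have hψX : ψ ∉ B.X := fun hm => by
    have := B.degX ψ hm
    rw [hd] at this
    have := hmod ((Int.modEq_zero_iff_dvd.mpr dvd_rfl).symm.trans this)
    rcases B.ha ψ hm with e | e <;> omega
  have hψμ : ∀ q, B.μ q ≠ ψ := fun q e => by
    have := B.deg_μ q
    rw [e, hd] at this
    rw [← this] at hzm
    have := hmod ((Int.modEq_zero_iff_dvd.mpr dvd_rfl).symm.trans hzm)
    rcases B.hε with e | e <;> rw [e] at this <;> omega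
  have hd' : (ψ : G → ℂ) 1 = p := by rw [← ψ.2.isCharacter.charDegree_cast, hd]
  have hi : ∀ a, ∃ m : ℤ, (ψ : G → ℂ) a = m := fun a =>
    exists_int_of_forall_ringEquiv (ψ.2.isCharacter.isIntegral a) fun σ =>
      congrFun (congrArg Subtype.val (hu ⟨_, ψ.2.map_ringHom σ⟩
        (charDegree_eq_of (by simp [hd'])))) a
  obtain ⟨ω, hω⟩ : ∃ ω : ℂ, IsPrimitiveRoot ω (2 * n + 1) :=
    ⟨_, Complex.isPrimitiveRoot_exp _ (by omega)⟩
  have ht : (ψ : G → ℂ) 1 = (2 * n + 1) * tN h.ord + 1 := by rw [hd']; exact_mod_cast het.symm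
  have hψ1 : (ψ : G → ℂ) ≠ fun _ => 1 := fun e => by
    rw [e] at hd'; exact hp.out.one_lt.ne (Nat.cast_injective (R := ℂ) (Nat.cast_one.trans hd'))
  let χ : ℕ → G → ℂ := fun k => (fun _ => 1) + (ψ : G → ℂ) - bet g (ω ^ k) (ω ^ k)⁻¹
  have hχ1 : ∀ k, χ k 1 = (p + 1 : ℕ) := fun k => by
    have := hD.bet_val (z := ω ^ k) (by rw [pow_right_comm, hω.pow_eq_one, one_pow]) 0
    simp only [pow_zero] at this
    simp only [χ, Pi.sub_apply, Pi.add_apply, this, hd']; push_cast; ring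
  have key : ∀ (ζ : IrrCharacter G) (s : ℕ), 0 < s → sg p x ζ = s → ζ ≠ irrOne G → ζ ≠ ψ →
      ∃ k, k ≠ 0 ∧ k ≤ n ∧ (ζ : G → ℂ) = χ k := fun ζ s hs h1 n1 n2 => by
    by_contra hno
    push Not at hno
    refine no_other h hg hD ψ.2 hd' hi (fun i hi => B.other' hψX hψμ hi) hn (fun k k0 k1 =>
      hD.other_val hω ψ.2 hψ1 ht ζ.2 (fun e => n1 (Subtype.ext e)) (fun e => n2 (Subtype.ext e))
        (fun j j0 j1 e => ?_) k0 k1) hs h1
    rcases le_or_gt j n with hj | hj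
    · exact hno j j0 hj e
    · refine hno (2 * n + 1 - j) (by omega) (by omega) (e.trans ?_)
      simp only [χ, DT.bet_sub hω j1.le]
  have hε : B.ε = 1 := B.hε.resolve_right fun e => by
    obtain ⟨k, -, -, hk⟩ := key (B.μ 1) (2 * n + 1) (by omega) (by
      rw [B.sg_μ, e, show Nat.card (EE h.ord) = 2 * n + 1 from he]; simp) (B.μ_ne_one 1) (hψμ 1)
    have h1 := B.μ_one 1
    rw [hk, hχ1] at h1
    have h2 : p + 1 = B.z := by exact_mod_cast h1
    rw [← h2, e] at hzm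
    have h3 : (1 : ℤ) ≡ -1 * (2 * n + 1 : ℕ) [ZMOD p] := by
      refine .trans ?_ hzm
      push_cast
      exact (Int.modEq_iff_dvd.mpr ⟨1, by ring⟩)
    have h4 := Nat.mul_le_mul_left (2 * n + 1) ht2
    have := hmod h3 (by omega) (by omega)
    omega
  let Xp := (B.X.filter fun ζ => B.a ζ = 1).erase (irrOne G)
  let Xm := B.X.filter fun ζ => ¬ B.a ζ = 1
  have hXp : ∀ ζ ∈ Xp, ∃ k, k ≠ 0 ∧ k ≤ n ∧ (ζ : G → ℂ) = χ k := fun ζ hζ => by
    obtain ⟨h1, h2⟩ := mem_erase.mp hζ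
    obtain ⟨h2, h3⟩ := mem_filter.mp h2
    exact key ζ (p - 1) (by omega) (by
      rw [B.sg_X h2, h3, Nat.cast_pred hp.out.pos]; simp) h1 fun e => hψX (e ▸ h2)
  have hcard : Xp.card ≤ n := by
    choose! k hk using hXp
    refine (card_le_card_of_injOn (t := Icc 1 n) k (fun ζ hζ => ?_) fun ζ hζ η hη e =>
      Subtype.ext (by rw [(hk ζ hζ).2.2, (hk η hη).2.2, e])).trans (by simp)
    have := hk ζ hζ
    exact mem_coe.mpr (mem_Icc.mpr ⟨by omega, this.2.1⟩)
  have h1m : irrOne G ∈ B.X.filter fun ζ => B.a ζ = 1 := mem_filter.mpr ⟨B.one_mem, B.a_one⟩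
  have hc2 : Xp.card + 1 + Xm.card = 2 * n + 1 := by
    rw [card_erase_add_one h1m, card_filter_add_card_filter_not, B.cardX]; exact he
  have hdeg := B.deg_eq
  rw [hε, one_mul, ← sum_filter_add_sum_filter_not B.X (fun ζ => B.a ζ = 1),
    ← add_sum_erase _ _ h1m, B.a_one, charDegree_irrOne] at hdeg
  have e1 : ∑ ζ ∈ Xp, B.a ζ * charDegree (ζ : G → ℂ) = Xp.card * (p + 1 : ℤ) := by
    rw [← nsmul_eq_mul, ← sum_const]
    refine sum_congr rfl fun ζ hζ => ?_
    obtain ⟨k, -, -, hk⟩ := hXp ζ hζ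
    rw [(mem_filter.mp (mem_erase.mp hζ).2).2, hk, charDegree_eq_of (hχ1 k)]; simp
  have e2 : ∑ ζ ∈ Xm, B.a ζ * charDegree (ζ : G → ℂ) ≤ Xm.card * (1 - p : ℤ) := by
    rw [← nsmul_eq_mul, ← sum_const]
    refine sum_le_sum fun ζ hζ => ?_
    obtain ⟨h2, h3⟩ := mem_filter.mp hζ
    have h4 := (B.ha ζ h2).resolve_left h3
    have h5 := B.degX ζ h2
    rw [h4] at h5 ⊢
    have := Int.le_of_dvd (by omega) (h5.symm.dvd)
    omega
  have hz : B.z ≤ 2 * n + 1 := by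
    have : (B.z : ℤ) ≤ 2 * n + 1 := by
      have h1 : (Xp.card : ℤ) ≤ n := by exact_mod_cast hcard
      have h2 : (Xm.card : ℤ) = 2 * n - Xp.card := by omega
      change (B.z : ℤ) = 1 * ((1 : ℕ) : ℤ) + ∑ ζ ∈ Xp, _ + ∑ ζ ∈ Xm, _ at hdeg
      rw [e1] at hdeg
      rw [h2] at e2
      have h3 := hdeg.trans_le (add_le_add le_rfl e2)
      have h4 := mul_nonneg (sub_nonneg.mpr h1) (Nat.cast_nonneg (α := ℤ) p)
      push_cast at h3
      linarith
    exact_mod_cast this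
  have hdiv : p ∣ Nat.card G := h.ord ▸ orderOf_dvd_natCard x
  have hnn : ∀ H : Subgroup G, H.Normal → Nat.card H ≠ p := fun H hH e => by
    rcases hH.eq_bot_or_eq_top with rfl | rfl
    · simp at e; omega
    · have := orderOf_dvd_natCard g
      rw [← card_top, e, hD.ord] at this
      have := hp.out.eq_one_or_self_of_dvd _ this
      omega
  have hf : ∀ a, (B.μ 1 : G → ℂ) a = (B.μ 1 : G → ℂ) 1 → a = 1 := fun a ha => by
    have := (B.μ 1).2.isCharacter.mem_charKer.mpr ha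
    rwa [(B.μ 1).2.charKer_eq_bot_of_simple fun e => B.μ_ne_one 1 (Subtype.ext e), mem_bot] at this
  have h3 := S4503.result p hp.out hdiv h.nsq hnn _ (B.μ 1).2.isCharacter hf
  obtain ⟨φ⟩ := S4504.result p hp.out hdiv h.nsq hnn _ (B.μ 1).2.isCharacter hf (by
    rw [B.deg_μ] at h3 ⊢; nlinarith)
  have hZ : center G = ⊥ := (inferInstance : (center G).Normal).eq_bot_or_eq_top.resolve_right
    fun e => hg.not_commute (j := 1) (pow_ne_one_of_lt_orderOf one_ne_zero (by rw [hD.ord]; omega))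
      ((mem_center_iff.mp (e ▸ mem_top (g ^ 1)) x))
  exact ⟨((QuotientGroup.quotientMulEquivOfEq hZ).trans QuotientGroup.quotientBot).symm.trans φ⟩

end Cfsg.Agent.H4BT
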