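import Cfsg.Agent.H4.BT3
import Cfsg.Agent.H2.Perm4
import Cfsg.Agent.H19.Basic
import Cfsg.Agent.H19.SC

/-! Reductions for permutation groups of prime degree with a unique character of that degree. -/

set_option autoImplicit false

namespace Cfsg.Agent.H4BT

open Cfsg Cfsg.Agent.H4 Cfsg.Agent.H19 Finset Subgroup MulAction
open scoped Pointwise

section perm
variable {G Ω : Type*} [Group G] [Fintype G] [Fintype Ω] [MulAction G Ω]

theorem swap_conj (h2 : IsMultiplyPretransitive G Ω 2) {u : G} (hu : u * u = 1) {a₀ : Ω}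
    (hf : ∀ a, u • a = a → a = a₀) {a₁ b₁ : Ω} (hab : a₁ ≠ b₁) :
    Fintype.card Ω - 1 ≤ Nat.card (centralizer {u}) ∧
      (Nat.card (centralizer {u}) ≤ Fintype.card Ω - 1 →
        ∀ w : G, w • a₁ = b₁ → w • b₁ = a₁ → w * w = 1) := by
  classical
  rw [H2.Pm.mt_two_iff] at h2
  let M : Ω → Ω → Finset G := fun a b => univ.filter fun h => h • a = a₁ ∧ h • b = b₁
  have hM : ∀ a b, a ≠ b → (M a b).card = (M a₁ b₁).card := fun a b h => by
    obtain ⟨k, k1, k2⟩ := h2 a b a₁ b₁ h hab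
    refine (card_nbij' (fun t => t * k) (fun t => t * k⁻¹) (fun t ht => ?_) (fun t ht => ?_)
      (fun _ _ => by simp) fun _ _ => by simp).symm
    · simpa [M, mul_smul, k1, k2] using ht
    · simpa [M, mul_smul, ← k1, ← k2] using ht
  have h0 : 0 < (M a₁ b₁).card := card_pos.mpr ⟨1, by simp [M]⟩
  let A := (univ.erase a₀).biUnion fun a => M a (u • a)
  have hA : A.card = (Fintype.card Ω - 1) * (M a₁ b₁).card := by
    rw [card_biUnion fun a _ b _ h => disjoint_left.mpr fun t t1 t2 => h (MulAction.injective t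
      ((mem_filter.mp t1).2.1.trans (mem_filter.mp t2).2.1.symm)),
      sum_congr rfl fun a ha => hM a _ fun e => (mem_erase.mp ha).1 (hf a e.symm)]
    simp
  have hU : A.image (fun t => t * u * t⁻¹) ⊆ M b₁ a₁ := fun w hw => by
    obtain ⟨t, ht, rfl⟩ := mem_image.mp hw
    obtain ⟨a, -, ht⟩ := mem_biUnion.mp ht
    obtain ⟨t1, t2⟩ := (mem_filter.mp ht).2
    refine mem_filter.mpr ⟨mem_univ _, ?_, ?_⟩
    · rw [← t2, ← t1, ← mul_smul, ← mul_smul, inv_mul_cancel_right, mul_assoc, hu, mul_one]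
    · rw [← t2, ← t1, ← mul_smul, ← mul_smul, inv_mul_cancel_right]
  have hle : A.card ≤ Nat.card (centralizer {u}) * (A.image fun t => t * u * t⁻¹).card :=
    card_le_mul_card_image _ _ fun w hw => by
      obtain ⟨t, -, rfl⟩ := mem_image.mp hw
      rw [← Nat.card_eq_finsetCard]
      refine Nat.card_le_card_of_injective (fun y => ⟨t⁻¹ * y.1, ?_⟩) fun y z e => Subtype.ext
        (mul_left_cancel (congrArg Subtype.val e))
      have := (mem_filter.mp y.2).2
      rw [mem_centralizer_singleton_iff]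
      calc t⁻¹ * y.1 * u = t⁻¹ * (y.1 * u * y.1⁻¹) * y.1 := by group
        _ = _ := by rw [this]; group
  have h3 := (card_le_card hU).trans (hM _ _ hab.symm).le
  refine ⟨Nat.le_of_mul_le_mul_right (hA ▸ hle.trans (Nat.mul_le_mul_left _ h3)) h0,
    fun hm w w1 w2 => ?_⟩
  have h4 : 0 < Fintype.card Ω - 1 := by
    have := Fintype.one_lt_card_iff.mpr ⟨_, _, hab⟩; omega
  have h5 := eq_of_subset_of_card_le hU ((hM _ _ hab.symm).le.trans
    (Nat.le_of_mul_le_mul_left (hA ▸ hle.trans (Nat.mul_le_mul_right _ hm)) h4))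
  obtain ⟨t, -, rfl⟩ := mem_image.mp (h5 ▸ mem_filter.mpr ⟨mem_univ w, w2, w1⟩ :
    w ∈ A.image fun t => t * u * t⁻¹)
  calc t * u * t⁻¹ * (t * u * t⁻¹) = t * (u * u) * t⁻¹ := by group
    _ = 1 := by rw [hu]; group

omit [Fintype G] in
theorem sq_of_swap [FaithfulSMul G Ω] (h3 : IsMultiplyPretransitive G Ω 3)
    (hs : ∀ a b : Ω, a ≠ b → ∀ w : G, w • a = b → w • b = a → w * w = 1) {u g : G} {a₀ : Ω}
    (hu : u * u = 1) (hu0 : u • a₀ = a₀) (hf : ∀ a, u • a = a → a = a₀) (hg0 : g • a₀ = a₀)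
    (hg : ∀ a, g • a = a → a = a₀) : g * g = 1 := by
  classical
  rw [H2.Pm.mt_three_iff] at h3
  have sharp : ∀ a b c : Ω, a ≠ b → a ≠ c → b ≠ c → ∀ y : G, y • a = a → y • b = b → y • c = c →
      y = 1 := fun a b c ab ac bc y ya yb yc => by
    obtain ⟨w, w1, w2, -⟩ := h3 a b c b a c ab ac bc ab.symm bc ac
    have inv : ∀ z : G, z • a = a → z • b = b → z⁻¹ = w * z * w := fun z za zb =>
      inv_eq_of_mul_eq_one_left (by
        rw [mul_assoc, hs a b ab (w * z) (by rw [mul_smul, za, w1]) (by rw [mul_smul, zb, w2])])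
    refine eq_of_smul_eq_smul (α := Ω) fun d => ?_
    rw [one_smul]
    by_cases da : d = a
    · rw [da, ya]
    by_cases db : d = b
    · rw [db, yb]
    obtain ⟨z, z1, z2, z3⟩ := h3 a b c a b d ab ac bc ab (Ne.symm da) (Ne.symm db)
    have : y * z = z * y := inv_injective (by
      rw [inv _ (by rw [mul_smul, z1, ya]) (by rw [mul_smul, z2, yb]), mul_inv_rev, inv y ya yb,
        inv z z1 z2]
      calc w * (y * z) * w = w * y * (w * w) * z * w := by rw [hs a b ab w w1 w2]; group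
        _ = _ := by group)
    rw [← z3, ← mul_smul, this, mul_smul, yc]
  by_contra hne
  obtain ⟨b, hb⟩ := H2.Pm.exists_smul_ne (X := Ω) (g := g) (by rintro rfl; simp at hne)
  have b0 : a₀ ≠ b := by rintro rfl; exact hb hg0
  have ne0 : ∀ {k : G} {d}, k • a₀ = a₀ → a₀ ≠ d → a₀ ≠ k • d := fun {k d} k0 d0 e =>
    d0 (MulAction.injective k (k0.trans e))
  obtain ⟨k, k0, k1, k2⟩ := h3 a₀ b (u • b) a₀ b (g • b) b0 (ne0 hu0 b0)
    (fun e => b0 (hf b e.symm).symm) b0 (ne0 hg0 b0) hb.symm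
  have hw : ∀ a, (k * u * k⁻¹) • a = a → a = a₀ := fun a ha => by
    rw [mul_smul, mul_smul, smul_eq_iff_eq_inv_smul] at ha
    rw [← k0, ← hf _ ha, smul_inv_smul]
  have hgw : g ≠ k * u * k⁻¹ := fun e => hne (by
    rw [e]
    calc k * u * k⁻¹ * (k * u * k⁻¹) = k * (u * u) * k⁻¹ := by group
      _ = 1 := by rw [hu]; group)
  have : ∀ d, a₀ ≠ d → ∃ t : G, t • a₀ = a₀ ∧ t • b = g • b ∧ ((d = b ∧ t = g) ∨
      (d = g • b ∧ t = k * u * k⁻¹) ∨ (d ≠ b ∧ t • d = d)) := fun d d0 => by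
    by_cases db : d = b
    · exact ⟨g, hg0, rfl, Or.inl ⟨db, rfl⟩⟩
    by_cases dc : d = g • b
    · refine ⟨_, ?_, ?_, Or.inr (Or.inl ⟨dc, rfl⟩)⟩
      · rw [mul_smul, mul_smul, inv_smul_eq_iff.mpr k0.symm, hu0, k0]
      · rw [mul_smul, mul_smul, inv_smul_eq_iff.mpr k1.symm, k2]
    obtain ⟨t, t0, t1, t2⟩ := h3 a₀ b d a₀ (g • b) d b0 d0 (Ne.symm db) (ne0 hg0 b0) d0
      (Ne.symm dc)
    exact ⟨t, t0, t1, Or.inr (Or.inr ⟨db, t2⟩)⟩
  choose! t t0 t1 t2 using this
  have hc := card_le_card_of_injOn (s := univ.erase a₀) (t := (univ.erase a₀).erase (g • b))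
    (fun d => t d • g • b) (fun d hd => ?_) fun d hd d' hd' e => ?_
  · exact absurd hc (not_le.mpr (card_erase_lt_of_mem (by simpa using (ne0 hg0 b0).symm)))
  · have d0 := (mem_erase.mp hd).1.symm
    simp only [coe_erase, coe_univ, Set.mem_diff, Set.mem_univ, Set.mem_singleton_iff, true_and]
    exact ⟨(ne0 (t0 d d0) (ne0 hg0 b0)).symm, fun e =>
      hb (MulAction.injective (t d) (e.trans (t1 d d0).symm))⟩
  · have d0 := (mem_erase.mp hd).1.symm
    have d0' := (mem_erase.mp hd').1.symm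
    have e1 : t d = t d' := by
      rw [← inv_mul_eq_one]
      refine sharp a₀ b (g • b) b0 (ne0 hg0 b0) hb.symm _ ?_ ?_ ?_ <;>
        rw [mul_smul, inv_smul_eq_iff]
      exacts [(t0 d' d0').trans (t0 d d0).symm, (t1 d' d0').trans (t1 d d0).symm, e.symm]
    by_contra hdd
    rcases t2 d d0 with ⟨a1, a2⟩ | ⟨a1, a2⟩ | ⟨a1, a2⟩ <;>
      rcases t2 d' d0' with ⟨c1, c2⟩ | ⟨c1, c2⟩ | ⟨c1, c2⟩
    · exact hdd (a1.trans c1.symm)
    · exact hgw (a2.symm.trans (e1.trans c2))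
    · exact d0' (hg d' (by rwa [← a2, e1])).symm
    · exact hgw (c2.symm.trans (e1.symm.trans a2))
    · exact hdd (a1.trans c1.symm)
    · exact d0' (hw d' (by rwa [← a2, e1])).symm
    · exact d0 (hg d (by rwa [← c2, ← e1])).symm
    · exact d0 (hw d (by rwa [← c2, ← e1])).symm
    · have := t1 d d0
      rw [sharp a₀ d d' d0 d0' hdd _ (t0 d d0) a2 (e1 ▸ c2), one_smul] at this
      exact hb this.symm

end perm

variable {G : Type*} [Group G] [Fintype G] {p : ℕ} [hp : Fact p.Prime] {x g : G}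
  {c : (ZMod p)ˣ}

theorem exists_Gen_E (h : PO p x ⊥) {E : Subgroup G} (h1 : zpowers x ⊔ E = NN x)
    (h2 : zpowers x ⊓ E = ⊥) : ∃ g c, Gen h.ord g c ∧ zpowers g = E := by
  obtain ⟨n, c, hn⟩ := h.exists_Gen
  have hE : E ≤ NN x := h1 ▸ le_sup_right
  obtain ⟨y, hy, g, hg, e⟩ : n ∈ (zpowers x : Set G) * (E : Set G) := by
    rw [← coe_mul_of_right_le_normalizer_left _ _ hE, h1]; exact hn.mem
  obtain ⟨i, rfl⟩ := (mem_zpowers_iff_xp h.ord).mp hy
  have cj : g * x * g⁻¹ = xp x (c : ZMod p) := by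
    have h3 := hn.cj
    rw [← e] at h3
    calc g * x * g⁻¹ = (xp x i)⁻¹ * (xp x i * g * x * (xp x i * g)⁻¹) * xp x i := by group
      _ = _ := by
        rw [h3, ← xp_neg h.ord, ← xp_add h.ord, ← xp_add h.ord]; congr 1; ring
  have h3 : ∀ a ∈ E, Commute x a → a = 1 := fun a ha hc => by
    obtain ⟨j, rfl⟩ := h.exists_xp hc
    exact mem_bot.mp (h2 ▸ mem_inf.mpr ⟨xp_mem x j, ha⟩)
  have hG : Gen h.ord g c := ⟨cj, hn.ordc, Nat.dvd_antisymm (orderOf_dvd_of_pow_eq_one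
    (h3 _ (pow_mem hg _) ((commute_pow_iff h.ord cj _).mpr hn.ordc.dvd))) (by
      rw [← hn.ordc, ← commute_pow_iff h.ord cj, pow_orderOf_eq_one]
      exact Commute.one_right x), hn.gen⟩
  refine ⟨g, c, hG, le_antisymm (zpowers_le.mpr hg) fun a ha => ?_⟩
  obtain ⟨j, k, rfl⟩ := hG.exists_eq h (hE ha)
  rw [h3 (xp x j) (by simpa using mul_mem ha (inv_mem (pow_mem hg k)))
    (Commute.self_pow x _), one_mul]
  exact pow_mem (mem_zpowers g) k

theorem psi_ne_zero (h : PO p x ⊥) (hg : Gen h.ord g c) (h1 : g ≠ 1) {ψ : G → ℂ}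
    (hψ : IsIrrCharacter G ψ) (hd : charDegree ψ = p) : ψ g ≠ 0 := by
  have h0 : sg p x ψ = (p - 1) * 0 := sg_const fun i hi =>
    H6.apply_eq_zero_of_defect_zero hp.out hψ (by
      rw [hd, hp.out.factorization_self]
      by_contra hlt
      exact h.nsq ((hp.out.pow_dvd_iff_le_factorization Nat.card_pos.ne').mpr (by omega)))
      (orderOf_xp h.ord hi).symm.dvd
  obtain ⟨lam, hl⟩ := (isCharacter_fx h.ord hψ.isCharacter).exists_linear (by
    simp only [OneMemClass.coe_one, fx_one, h0, mul_zero, add_zero]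
    rw [← hψ.isCharacter.charDegree_cast, hd, inv_mul_cancel₀ p_ne_zero_C])
  rw [← fx_eq_of_not_commute h.ord hψ.isClassFunction hg.mem
    (by simpa using hg.not_commute (j := 1) (by simpa using h1))]
  exact (congrFun hl ⟨g, hg.mem⟩).trans_ne (Units.ne_zero _)

theorem simple_of (h : PO p x ⊥) (hg : Gen h.ord g c) {ψ : IrrCharacter G}
    (hd : charDegree (ψ : G → ℂ) = p)
    (hu : ∀ ζ : IrrCharacter G, charDegree (ζ : G → ℂ) = p → ζ = ψ) (P : Sylow p G)
    (hP : zpowers x = P) (hM : ∀ M : Subgroup G, M.Normal → M ≠ ⊥ → p ∣ Nat.card M) :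
    IsSimpleGroup G := by
  haveI : Nontrivial G := ⟨x, 1, fun e => hp.out.one_lt.ne (by simpa [e] using h.ord)⟩
  refine ⟨fun M hN => or_iff_not_imp_left.mpr fun h0 => ?_⟩
  obtain ⟨y, hy⟩ := exists_prime_orderOf_dvd_card' p (hM M hN h0)
  obtain ⟨a, i, e⟩ := h.exists_conj_xp (g := y) (by rw [orderOf_coe, hy])
  have hx : x ∈ M := by
    rw [← xp_pow_inv h.ord i.ne_zero]
    exact pow_mem (by simpa [e, mul_assoc] using hN.conj_mem _ y.2 a⁻¹) _
  have h1 := P.normalizer_sup_eq_top' (N := M) (hP ▸ zpowers_le.mpr hx)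
  have h2 : ∀ a : G ⧸ M, a ∈ zpowers (g : G ⧸ M) := fun a => by
    obtain ⟨a, rfl⟩ := QuotientGroup.mk_surjective a
    have : (⊤ : Subgroup G) ≤ (zpowers (g : G ⧸ M)).comap (QuotientGroup.mk' M) := by
      rw [← h1]
      refine sup_le (fun n hn => ?_) fun m hm => ?_
      · obtain ⟨i, j, rfl⟩ := hg.exists_eq h (n := n) (by rw [NN, hP]; exact hn)
        rw [mem_comap, map_mul, map_pow, QuotientGroup.mk'_apply,
          (QuotientGroup.eq_one_iff _).mpr (zpowers_le.mpr hx (xp_mem x i)), one_mul]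
        exact pow_mem (mem_zpowers _) _
      · rw [mem_comap, QuotientGroup.mk'_apply, (QuotientGroup.eq_one_iff _).mpr hm]
        exact one_mem _
    exact this (mem_top a)
  by_contra hne
  have h3 : (g : G ⧸ M) ≠ 1 := fun e => hne (eq_top_iff.mpr fun a _ =>
    (QuotientGroup.eq_one_iff a).mp (by simpa [e] using h2 a))
  have h4 := orderOf_pos (g : G ⧸ M)
  have hω := Complex.isPrimitiveRoot_exp _ h4.ne'
  have hω' := hω.isUnit_unit h4.ne'
  let lam := (monoidHomOfForallMemZpowers h2 hω'.eq_orderOf.symm.dvd).comp (QuotientGroup.mk' M)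
  have h5 := congrFun (congrArg Subtype.val (hu ⟨_, ψ.2.mul_linear lam⟩ (charDegree_eq_of (by
    simp [← hd, ψ.2.isCharacter.charDegree_cast])))) g
  simp only [lam, Pi.mul_apply, MonoidHom.comp_apply, QuotientGroup.mk'_apply,
    monoidHomOfForallMemZpowers_apply_gen, IsUnit.unit_spec] at h5
  exact hω.ne_one (by have := mt orderOf_eq_one_iff.mp h3; omega) (mul_left_cancel₀
    (psi_ne_zero h hg (fun e => h3 (by simp [e])) ψ.2 hd) (h5.trans (mul_one _).symm))

theorem exists_DT [IsSimpleGroup G] (hG : ¬ IsMulCommutative G) {n : ℕ} (ho : orderOf g = 2 * n + 1)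
    (hN : Nat.card (normalizer (zpowers g : Set G)) = 2 * Nat.card (zpowers g))
    (hT : ∀ a ∈ zpowers g, a ≠ 1 → ∀ t, t * a * t⁻¹ ∈ zpowers g →
      t ∈ normalizer (zpowers g : Set G)) : ∃ s, DT g s n := by
  have hi : (zpowers g).relIndex (normalizer (zpowers g : Set G)) = 2 := by
    have := relIndex_mul_relIndex ⊥ _ _ bot_le (le_normalizer (H := zpowers g))
    rw [relIndex_bot_left, relIndex_bot_left, hN, mul_comm] at this
    exact Nat.eq_of_mul_eq_mul_right Nat.card_pos this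
  obtain ⟨⟨s, hs⟩, hs'⟩ := index_eq_two_iff.mp hi
  have h1 : ∀ t ∈ normalizer (zpowers g : Set G), t ∈ zpowers g ∨ t * s ∈ zpowers g :=
    fun t ht => (hs' ⟨t, ht⟩).or.symm
  have hs1 : s ∉ zpowers g := fun e => by
    have := hs' 1
    simp [mem_subgroupOf, e] at this
  obtain ⟨m, hm⟩ : ∃ m : ℤ, g ^ m = s * g * s⁻¹ := (mem_normalizer_iff.mp hs g).mp (mem_zpowers g)
  have hcom : ∀ a ∈ zpowers g, ∀ k : ℤ, a * g ^ k * a⁻¹ = g ^ k := by
    rintro _ ⟨j, rfl⟩ k; group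
  have hm2 : (orderOf g : ℤ) ∣ (m - 1) * (m + 1) := by
    rw [orderOf_dvd_iff_zpow_eq_one, show (m - 1) * (m + 1) = m * m + -1 by ring, zpow_add,
      zpow_mul, hm, conj_zpow, hm, zpow_neg_one, mul_inv_eq_one]
    have := hcom _ ((h1 s hs).resolve_left hs1) 1
    rw [zpow_one] at this
    exact Eq.trans (by group) this
  refine ⟨s, ho, ?_, fun a ha a1 t ht => (h1 t⁻¹ (inv_mem (hT a ha a1 t ht))).imp
    (fun e => by simpa using e) fun e => by simpa using inv_mem e⟩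
  rw [← hm, eq_inv_iff_mul_eq_one, ← zpow_add_one, ← orderOf_dvd_iff_zpow_eq_one,
    Int.natCast_dvd]
  refine (Nat.dvd_iff_prime_pow_dvd_dvd _ _).mpr fun r k hr hk => ?_
  rcases k with _ | k
  · simp
  haveI := Fact.mk hr
  have r2 : ¬ (r : ℤ) ∣ 2 := fun e => by
    have h2 := (Nat.prime_dvd_prime_iff_eq hr Nat.prime_two).mp (by exact_mod_cast e)
    have h3 := (dvd_pow_self r k.succ_ne_zero).trans hk
    rw [h2, ho] at h3; omega
  have hrp := Nat.prime_iff_prime_int.mp hr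
  rw [← Int.natCast_dvd, Nat.cast_pow]
  by_cases hr1 : (r : ℤ) ∣ m + 1
  · exact hrp.pow_dvd_of_dvd_mul_left _ (fun e => r2 (by simpa using (hr1.sub e)))
      ((by exact_mod_cast hk : (r : ℤ) ^ (k + 1) ∣ orderOf g).trans hm2)
  obtain ⟨a, b, hb, e⟩ := Nat.exists_eq_pow_mul_and_not_dvd (orderOf_pos g).ne' r hr.ne_one
  have hb0 : b ≠ 0 := by rintro rfl; simp at hb
  have hy : orderOf (g ^ b) = r ^ a := by
    rw [orderOf_pow' _ hb0, e, Nat.gcd_mul_left_left, Nat.mul_div_cancel _ (Nat.pos_of_ne_zero hb0)]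
  have hrd : r ∣ orderOf g := (dvd_pow_self r k.succ_ne_zero).trans hk
  have hy1 : g ^ b ≠ 1 := fun e' => hb (hrd.trans (orderOf_dvd_of_pow_eq_one e'))
  have hc : Nat.card (zpowers (g ^ b)) = r ^ a := by rw [Nat.card_zpowers, hy]
  have hle : normalizer (zpowers (g ^ b) : Set G) ≤ normalizer (zpowers g : Set G) := fun t ht =>
    hT _ (pow_mem (mem_zpowers g) b) hy1 t (zpowers_le.mpr (pow_mem (mem_zpowers g) b)
      ((mem_normalizer_iff.mp ht _).mp (mem_zpowers _)))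
  have hnd : ¬ r ∣ (zpowers (g ^ b)).index := fun hd => by
    have h2 := (Sylow.prime_pow_dvd_card_normalizer (by
      rw [← (zpowers (g ^ b)).card_mul_index, hc, pow_succ]
      exact Nat.mul_dvd_mul_left _ hd) hc).trans (card_dvd_of_le hle)
    rw [hN, Nat.card_zpowers, e, pow_succ, mul_left_comm, Nat.mul_dvd_mul_iff_left
      (pow_pos hr.pos a), hr.dvd_mul] at h2
    exact h2.elim (fun e => r2 (by exact_mod_cast e)) hb
  refine absurd (fun t ht => ?_) (not_normalizer_le_centralizer hG r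
    (hrd.trans (orderOf_dvd_natCard g)) ((IsPGroup.of_card hc).toSylow hnd))
  have h2 : s * g ^ b * s⁻¹ = g ^ b := by
    rw [← conj_pow, ← hm, ← zpow_natCast, ← zpow_mul, mul_comm, zpow_mul, zpow_natCast,
      ← mul_inv_eq_one, ← zpow_sub_one, ← orderOf_dvd_iff_zpow_eq_one, hy, Nat.cast_pow]
    exact hrp.pow_dvd_of_dvd_mul_right _ hr1
      ((by rw [e]; exact ⟨b, by push_cast; rfl⟩ : (r : ℤ) ^ a ∣ orderOf g).trans hm2)
  have h3 : t * g ^ b * t⁻¹ = g ^ b := by
    rcases h1 t (hle ht) with e | e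
    · simpa using hcom t e b
    · have := hcom _ e b
      rw [zpow_natCast] at this
      conv_lhs => rw [← h2]
      exact Eq.trans (by group) this
  rintro _ ⟨j, rfl⟩
  exact (Commute.zpow_left (mul_inv_eq_iff_eq_mul.mp h3).symm j).eq

end Cfsg.Agent.H4BT
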